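import Mathlib

set_option autoImplicit false

namespace Cfsg.Agent.Lib.Lead.Star

variable {ι : Type*} [Fintype ι] [DecidableEq ι]

/-- indicator vector -/
def ind (p : ι) (i : ι) : ℤ := if i = p then 1 else 0

theorem ind_self (p : ι) : ind p p = 1 := by simp [ind]

theorem ind_ne {p i : ι} (h : i ≠ p) : ind p i = 0 := by simp [ind, h]

theorem ind_cases (p i : ι) : ind p i = 0 ∨ ind p i = 1 := by
  unfold ind; split_ifs <;> simp

theorem sum_mul_ind (p : ι) (f : ι → ℤ) : ∑ i, f i * ind p i = f p := by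
  simp [ind]

theorem norm_two (d : ι → ℤ) (h : ∑ i, d i * d i = 2) :
    ∃ p m : ι, p ≠ m ∧ (d p = 1 ∨ d p = -1) ∧ (d m = 1 ∨ d m = -1) ∧
      ∀ i, i ≠ p → i ≠ m → d i = 0 := by
  have hle : ∀ i, d i * d i ≤ 2 := by
    intro i
    rw [← h]
    exact Finset.single_le_sum (f := fun i => d i * d i) (fun j _ => mul_self_nonneg (d j))
      (Finset.mem_univ i)
  have hval : ∀ i, d i = 0 ∨ d i = 1 ∨ d i = -1 := by
    intro i
    have h0 := hle i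
    have h1 : d i ≤ 1 := by
      by_contra hc
      push Not at hc
      nlinarith
    have h2 : -1 ≤ d i := by
      by_contra hc
      push Not at hc
      nlinarith
    omega
  have hsq : ∀ i, d i * d i = if d i ≠ 0 then 1 else 0 := by
    intro i
    rcases hval i with h0 | h0 | h0 <;> simp [h0]
  have hcard : (Finset.univ.filter (fun i => d i ≠ 0)).card = 2 := by
    have h1 : ∑ i, d i * d i = ((Finset.univ.filter (fun i => d i ≠ 0)).card : ℤ) := by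
      rw [Finset.sum_congr rfl (fun i _ => hsq i)]
      rw [Finset.sum_boole]
    rw [h] at h1
    exact_mod_cast h1.symm
  obtain ⟨p, m, hpm, hS⟩ := Finset.card_eq_two.mp hcard
  have hp : d p ≠ 0 := by
    have h1 : p ∈ Finset.univ.filter (fun i => d i ≠ 0) := by rw [hS]; simp
    simpa using h1
  have hm : d m ≠ 0 := by
    have h1 : m ∈ Finset.univ.filter (fun i => d i ≠ 0) := by rw [hS]; simp
    simpa using h1
  refine ⟨p, m, hpm, ?_, ?_, ?_⟩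
  · rcases hval p with h0 | h0 | h0
    · exact absurd h0 hp
    · left; exact h0
    · right; exact h0
  · rcases hval m with h0 | h0 | h0
    · exact absurd h0 hm
    · left; exact h0
    · right; exact h0
  · intro i hip him
    by_contra hi
    have h1 : i ∈ Finset.univ.filter (fun i => d i ≠ 0) := by simp [hi]
    rw [hS] at h1
    simp at h1
    rcases h1 with h1 | h1
    · exact hip h1
    · exact him h1

theorem norm_two_deg (d : ι → ℤ) (h : ∑ i, d i * d i = 2) (deg : ι → ℤ)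
    (hdeg : ∀ i, 0 < deg i) (hd : ∑ i, d i * deg i = 0) :
    ∃ p m : ι, p ≠ m ∧ ∀ i, d i = ind p i - ind m i := by
  obtain ⟨p, m, hpm, hp, hm, h0⟩ := norm_two d h
  have hsum : ∑ i, d i * deg i = d p * deg p + d m * deg m := by
    apply Fintype.sum_eq_add p m hpm
    intro x hx
    rw [h0 x hx.1 hx.2, zero_mul]
  rw [hsum] at hd
  have h1 := hdeg p
  have h2 := hdeg m
  rcases hp with hp | hp <;> rcases hm with hm | hm
  · exfalso; rw [hp, hm] at hd; linarith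
  · refine ⟨p, m, hpm, ?_⟩
    intro i
    by_cases hip : i = p
    · rw [hip, ind_self, ind_ne hpm, hp]; ring
    · by_cases him : i = m
      · rw [him, ind_ne hpm.symm, ind_self, hm]; ring
      · rw [h0 i hip him, ind_ne hip, ind_ne him]; ring
  · refine ⟨m, p, hpm.symm, ?_⟩
    intro i
    by_cases hip : i = p
    · rw [hip, ind_self, ind_ne hpm, hp]; ring
    · by_cases him : i = m
      · rw [him, ind_ne hpm.symm, ind_self, hm]; ring
      · rw [h0 i hip him, ind_ne hip, ind_ne him]; ring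
  · exfalso; rw [hp, hm] at hd; linarith

theorem ind_sub_inj {pa ma pb mb : ι} (ha : pa ≠ ma) (hb : pb ≠ mb)
    (h : ∀ i, ind pa i - ind ma i = ind pb i - ind mb i) : pa = pb ∧ ma = mb := by
  constructor
  · by_contra hc
    have h1 := h pa
    rw [ind_self, ind_ne ha, ind_ne hc] at h1
    rcases ind_cases mb pa with h2 | h2 <;> omega
  · by_contra hc
    have h1 := h ma
    rw [ind_self, ind_ne ha.symm, ind_ne hc] at h1
    rcases ind_cases pb ma with h2 | h2 <;> omega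

theorem ind_sub_dich {pa ma pb mb p m : ι} (ha : pa ≠ ma) (hb : pb ≠ mb) (hpm : p ≠ m)
    (h : ∀ i, (ind pb i - ind mb i) - (ind pa i - ind ma i) = ind p i - ind m i) :
    (pa = pb ∧ ma ≠ mb) ∨ (ma = mb ∧ pa ≠ pb) := by
  by_cases h1 : pa = pb
  · left
    refine ⟨h1, ?_⟩
    intro h2
    have h3 := h p
    rw [h1, h2, ind_self, ind_ne hpm] at h3
    omega
  · right
    refine ⟨?_, h1⟩
    by_contra h2
    have h1' : pb ≠ pa := fun hh => h1 hh.symm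
    have h2' : mb ≠ ma := fun hh => h2 hh.symm
    -- evaluate at pb
    have e1 := h pb
    rw [ind_self, ind_ne hb, ind_ne h1'] at e1
    have c1 : pb ≠ ma := by
      intro hc
      rw [hc, ind_self] at e1
      rcases ind_cases p ma with h3 | h3 <;> rcases ind_cases m ma with h4 | h4 <;> omega
    rw [ind_ne c1] at e1
    have c2 : pb = p := by
      by_contra hc
      rw [ind_ne hc] at e1
      rcases ind_cases m pb with h4 | h4 <;> omega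
    -- evaluate at ma
    have e2 := h ma
    rw [ind_ne (Ne.symm c1), ind_ne (Ne.symm h2'), ind_ne ha.symm, ind_self] at e2
    have c3 : ma = p := by
      by_contra hc
      rw [ind_ne hc] at e2
      rcases ind_cases m ma with h4 | h4 <;> omega
    exact c1 (c2.trans c3.symm)

section main

variable {Λ : Type*} (v : Λ → ι → ℤ) (r : Λ → Λ → Prop)
    (deg : ι → ℤ) (hdeg : ∀ i, 0 < deg i)
    (hdv : ∀ ψ, ∑ i, v ψ i * deg i = 0)
    (hr : ∀ ψ φ, r ψ φ → v ψ = v φ)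
    (hnorm : ∀ ψ, ∑ i, v ψ i * v ψ i = 4)
    (hip : ∀ ψ φ, ¬ r ψ φ → ∑ i, v ψ i * v φ i = 3)

include hdeg hdv hnorm hip in
theorem diff (ψ φ : Λ) (h : ¬ r ψ φ) :
    ∃ p m : ι, p ≠ m ∧ ∀ i, v φ i - v ψ i = ind p i - ind m i := by
  apply norm_two_deg (fun i => v φ i - v ψ i) ?_ deg hdeg ?_
  · have h1 : ∑ i, (v φ i - v ψ i) * (v φ i - v ψ i)
        = ∑ i, v φ i * v φ i - 2 * ∑ i, v ψ i * v φ i + ∑ i, v ψ i * v ψ i := by
      rw [Finset.mul_sum, ← Finset.sum_sub_distrib, ← Finset.sum_add_distrib]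
      apply Finset.sum_congr rfl
      intro i _
      ring
    rw [h1, hnorm, hnorm, hip ψ φ h]
    norm_num
  · have h1 : ∑ i, (v φ i - v ψ i) * deg i = ∑ i, v φ i * deg i - ∑ i, v ψ i * deg i := by
      rw [← Finset.sum_sub_distrib]
      apply Finset.sum_congr rfl
      intro i _
      ring
    rw [h1, hdv, hdv]
    norm_num

include hdeg hdv hr hnorm hip in
theorem star_aux (ψ₁ ψ₂ ψ₃ : Λ) (h12 : ¬ r ψ₁ ψ₂) (h13 : ¬ r ψ₁ ψ₃) (h23 : ¬ r ψ₂ ψ₃) :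
    ∃ (W : ι → ℤ) (ε : ℤ) (h : Λ → ι), (ε = 1 ∨ ε = -1) ∧
      ∀ ψ i, v ψ i = W i + ε * ind (h ψ) i := by
  obtain ⟨p₂, m₂, hpm₂, hd₂⟩ := diff v r deg hdeg hdv hnorm hip ψ₁ ψ₂ h12
  obtain ⟨p₃, m₃, hpm₃, hd₃⟩ := diff v r deg hdeg hdv hnorm hip ψ₁ ψ₃ h13
  obtain ⟨p, m, hpm, hd⟩ := diff v r deg hdeg hdv hnorm hip ψ₂ ψ₃ h23
  have hX := ind_sub_dich hpm₂ hpm₃ hpm
    (fun i => by have a := hd i; have b := hd₂ i; have c := hd₃ i; linarith)
  -- general comparison with a reference vector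
  have cmp : ∀ (ψ₀ : Λ) (p₀ m₀ : ι), p₀ ≠ m₀ → (∀ i, v ψ₀ i - v ψ₁ i = ind p₀ i - ind m₀ i) →
      ∀ (ψ : Λ) (pψ mψ : ι), pψ ≠ mψ → (∀ i, v ψ i - v ψ₁ i = ind pψ i - ind mψ i) →
      (pψ = p₀ ∧ mψ = m₀) ∨ (pψ = p₀ ∧ mψ ≠ m₀) ∨ (mψ = m₀ ∧ pψ ≠ p₀) := by
    intro ψ₀ p₀ m₀ hne₀ hd₀ ψ pψ mψ hne hdψ
    by_cases h2 : r ψ₀ ψ
    · left
      have h3 := hr ψ₀ ψ h2
      apply ind_sub_inj hne hne₀
      intro i
      rw [← hdψ i, ← hd₀ i, h3]
    · right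
      obtain ⟨p', m', hne', hd'⟩ := diff v r deg hdeg hdv hnorm hip ψ₀ ψ h2
      have h3 := ind_sub_dich hne₀ hne hne'
        (fun i => by have a := hd' i; have b := hd₀ i; have c := hdψ i; linarith)
      rcases h3 with ⟨a, b⟩ | ⟨a, b⟩
      · left; exact ⟨a.symm, fun hh => b hh.symm⟩
      · right; exact ⟨a.symm, fun hh => b hh.symm⟩
  rcases hX with ⟨hpp, hmm⟩ | ⟨hmm, hpp⟩
  · -- common plus coordinate p₂ = p₃
    have key : ∀ ψ, ∃ hψ : ι, ∀ i, v ψ i = (v ψ₁ i + ind p₂ i) + (-1) * ind hψ i := by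
      intro ψ
      by_cases hψ : r ψ₁ ψ
      · refine ⟨p₂, fun i => ?_⟩
        rw [← hr ψ₁ ψ hψ]; ring
      · obtain ⟨pψ, mψ, hne, hdψ⟩ := diff v r deg hdeg hdv hnorm hip ψ₁ ψ hψ
        have c2 := cmp ψ₂ p₂ m₂ hpm₂ hd₂ ψ pψ mψ hne hdψ
        have c3 := cmp ψ₃ p₃ m₃ hpm₃ hd₃ ψ pψ mψ hne hdψ
        have hp : pψ = p₂ := by
          rcases c2 with ⟨a, _⟩ | ⟨a, _⟩ | ⟨a, b⟩
          · exact a
          · exact a
          · rcases c3 with ⟨a', _⟩ | ⟨a', _⟩ | ⟨a', b'⟩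
            · rw [a', hpp]
            · rw [a', hpp]
            · exact absurd (a.symm.trans a') hmm
        refine ⟨mψ, fun i => ?_⟩
        have h3 := hdψ i
        rw [hp] at h3
        linarith
    choose h hh using key
    exact ⟨fun i => v ψ₁ i + ind p₂ i, -1, h, Or.inr rfl, hh⟩
  · -- common minus coordinate m₂ = m₃
    have key : ∀ ψ, ∃ hψ : ι, ∀ i, v ψ i = (v ψ₁ i - ind m₂ i) + 1 * ind hψ i := by
      intro ψ
      by_cases hψ : r ψ₁ ψ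
      · refine ⟨m₂, fun i => ?_⟩
        rw [← hr ψ₁ ψ hψ]; ring
      · obtain ⟨pψ, mψ, hne, hdψ⟩ := diff v r deg hdeg hdv hnorm hip ψ₁ ψ hψ
        have c2 := cmp ψ₂ p₂ m₂ hpm₂ hd₂ ψ pψ mψ hne hdψ
        have c3 := cmp ψ₃ p₃ m₃ hpm₃ hd₃ ψ pψ mψ hne hdψ
        have hm : mψ = m₂ := by
          rcases c2 with ⟨_, a⟩ | ⟨a, b⟩ | ⟨a, _⟩
          · exact a
          · rcases c3 with ⟨_, a'⟩ | ⟨a', b'⟩ | ⟨a', _⟩
            · rw [a', hmm]
            · exact absurd (a.symm.trans a') hpp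
            · rw [a', hmm]
          · exact a
        refine ⟨pψ, fun i => ?_⟩
        have h3 := hdψ i
        rw [hm] at h3
        linarith
    choose h hh using key
    exact ⟨fun i => v ψ₁ i - ind m₂ i, 1, h, Or.inl rfl, hh⟩

include hdeg hdv hr hnorm hip in
theorem star (o : ι) (ho : ∀ ψ, v ψ o = -1)
    (ψ₁ ψ₂ ψ₃ ψ₄ ψ₅ : Λ)
    (h12 : ¬ r ψ₁ ψ₂) (h13 : ¬ r ψ₁ ψ₃) (h14 : ¬ r ψ₁ ψ₄) (h15 : ¬ r ψ₁ ψ₅)
    (h23 : ¬ r ψ₂ ψ₃) (h24 : ¬ r ψ₂ ψ₄) (h25 : ¬ r ψ₂ ψ₅)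
    (h34 : ¬ r ψ₃ ψ₄) (h35 : ¬ r ψ₃ ψ₅) (h45 : ¬ r ψ₄ ψ₅) :
    ∃ (χ₁ χ₂ : ι) (ε₁ ε₂ ε : ℤ) (h : Λ → ι), χ₁ ≠ χ₂ ∧ χ₁ ≠ o ∧ χ₂ ≠ o ∧
      (ε₁ = 1 ∨ ε₁ = -1) ∧ (ε₂ = 1 ∨ ε₂ = -1) ∧ (ε = 1 ∨ ε = -1) ∧
      (∀ ψ, h ψ ≠ o ∧ h ψ ≠ χ₁ ∧ h ψ ≠ χ₂) ∧
      ∀ ψ i, v ψ i = -ind o i + ε₁ * ind χ₁ i + ε₂ * ind χ₂ i + ε * ind (h ψ) i := by
  obtain ⟨W, ε, h, hε, hv⟩ := star_aux v r deg hdeg hdv hr hnorm hip ψ₁ ψ₂ ψ₃ h12 h13 h23
  have hεsq : ε * ε = 1 := by rcases hε with rfl | rfl <;> norm_num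
  obtain ⟨N, hN⟩ : ∃ N : ℤ, N = ∑ i, W i * W i := ⟨_, rfl⟩
  have hn : ∀ ψ, N + 2 * ε * W (h ψ) + 1 = 4 := by
    intro ψ
    have h1 := hnorm ψ
    have h2 : ∑ i, v ψ i * v ψ i = ∑ i, W i * W i + 2 * ε * ∑ i, W i * ind (h ψ) i
        + (ε * ε) * ∑ i, ind (h ψ) i * ind (h ψ) i := by
      rw [Finset.mul_sum, Finset.mul_sum, ← Finset.sum_add_distrib, ← Finset.sum_add_distrib]
      apply Finset.sum_congr rfl
      intro i _
      rw [hv ψ i]; ring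
    rw [h2, sum_mul_ind, sum_mul_ind, ind_self, hεsq, ← hN] at h1
    linarith
  have hi : ∀ ψ φ, ¬ r ψ φ → h ψ ≠ h φ := by
    intro ψ φ hψφ heq
    have h1 := hip ψ φ hψφ
    have h2 : ∑ i, v ψ i * v φ i = ∑ i, W i * W i + ε * ∑ i, W i * ind (h φ) i
        + ε * ∑ i, W i * ind (h ψ) i + (ε * ε) * ∑ i, ind (h ψ) i * ind (h φ) i := by
      rw [Finset.mul_sum, Finset.mul_sum, Finset.mul_sum, ← Finset.sum_add_distrib,
        ← Finset.sum_add_distrib, ← Finset.sum_add_distrib]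
      apply Finset.sum_congr rfl
      intro i _
      rw [hv ψ i, hv φ i]; ring
    rw [h2, sum_mul_ind, sum_mul_ind, sum_mul_ind, hεsq, ← hN, heq, ind_self] at h1
    have h3 := hn φ
    linarith
  have hoW : ∀ ψ, W o + ε * ind (h ψ) o = -1 := fun ψ => by rw [← hv ψ o]; exact ho ψ
  have h12' := hi ψ₁ ψ₂ h12
  have hWo : W o = -1 := by
    by_cases c : h ψ₁ = o
    · have c2 : h ψ₂ ≠ o := fun hh => h12' (c.trans hh.symm)
      have h3 := hoW ψ₂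
      rw [ind_ne (Ne.symm c2)] at h3
      linarith
    · have h3 := hoW ψ₁
      rw [ind_ne (Ne.symm c)] at h3
      linarith
  have hho : ∀ ψ, h ψ ≠ o := by
    intro ψ hh
    have h3 := hoW ψ
    rw [hh, ind_self, hWo] at h3
    rcases hε with rfl | rfl <;> omega
  have hc : ∀ ψ, W (h ψ) = W (h ψ₁) := by
    intro ψ
    have a := hn ψ
    have b := hn ψ₁
    rcases hε with rfl | rfl <;> linarith
  obtain ⟨c, hcdef⟩ : ∃ c : ℤ, c = W (h ψ₁) := ⟨_, rfl⟩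
  have hsub : ∑ i ∈ ({o, h ψ₁, h ψ₂, h ψ₃, h ψ₄, h ψ₅} : Finset ι), W i * W i ≤ N := by
    rw [hN]
    exact Finset.sum_le_sum_of_subset_of_nonneg (Finset.subset_univ _)
      (fun i _ _ => mul_self_nonneg (W i))
  have hsix : ∑ i ∈ ({o, h ψ₁, h ψ₂, h ψ₃, h ψ₄, h ψ₅} : Finset ι), W i * W i
      = 1 + 5 * (c * c) := by
    have n45 : h ψ₄ ∉ ({h ψ₅} : Finset ι) := by
      simp only [Finset.mem_singleton]; exact hi _ _ h45
    have n3 : h ψ₃ ∉ ({h ψ₄, h ψ₅} : Finset ι) := by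
      simp only [Finset.mem_insert, Finset.mem_singleton, not_or]
      exact ⟨hi _ _ h34, hi _ _ h35⟩
    have n2 : h ψ₂ ∉ ({h ψ₃, h ψ₄, h ψ₅} : Finset ι) := by
      simp only [Finset.mem_insert, Finset.mem_singleton, not_or]
      exact ⟨hi _ _ h23, hi _ _ h24, hi _ _ h25⟩
    have n1 : h ψ₁ ∉ ({h ψ₂, h ψ₃, h ψ₄, h ψ₅} : Finset ι) := by
      simp only [Finset.mem_insert, Finset.mem_singleton, not_or]
      exact ⟨hi _ _ h12, hi _ _ h13, hi _ _ h14, hi _ _ h15⟩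
    have n0 : o ∉ ({h ψ₁, h ψ₂, h ψ₃, h ψ₄, h ψ₅} : Finset ι) := by
      simp only [Finset.mem_insert, Finset.mem_singleton, not_or]
      exact ⟨fun hh => hho ψ₁ hh.symm, fun hh => hho ψ₂ hh.symm, fun hh => hho ψ₃ hh.symm,
        fun hh => hho ψ₄ hh.symm, fun hh => hho ψ₅ hh.symm⟩
    rw [Finset.sum_insert n0, Finset.sum_insert n1, Finset.sum_insert n2, Finset.sum_insert n3,
      Finset.sum_insert n45, Finset.sum_singleton]
    rw [hWo, hc ψ₂, hc ψ₃, hc ψ₄, hc ψ₅, ← hcdef]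
    ring
  have hc0 : c = 0 := by
    have a := hn ψ₁
    rw [← hcdef] at a
    have b : 1 + 5 * (c * c) ≤ N := hsix ▸ hsub
    by_contra hne
    have h3 : c ≤ -1 ∨ 1 ≤ c := by omega
    rcases hε with rfl | rfl <;> rcases h3 with h1 | h1 <;> nlinarith
  have hN3 : N = 3 := by
    have a := hn ψ₁
    rw [← hcdef, hc0] at a
    linarith
  have hW0 : ∀ ψ, W (h ψ) = 0 := fun ψ => by rw [hc ψ, ← hcdef, hc0]
  have hW' : ∑ i, (W i + ind o i) * (W i + ind o i) = 2 := by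
    have h2 : ∑ i, (W i + ind o i) * (W i + ind o i)
        = ∑ i, W i * W i + 2 * ∑ i, W i * ind o i + ∑ i, ind o i * ind o i := by
      rw [Finset.mul_sum, ← Finset.sum_add_distrib, ← Finset.sum_add_distrib]
      apply Finset.sum_congr rfl
      intro i _
      ring
    rw [h2, sum_mul_ind, sum_mul_ind, ind_self, hWo, ← hN, hN3]
    norm_num
  obtain ⟨χ₁, χ₂, hχ, h1, h2, h0⟩ := norm_two _ hW'
  have hχ₁o : χ₁ ≠ o := by
    intro hh
    rw [hh, ind_self, hWo] at h1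
    omega
  have hχ₂o : χ₂ ≠ o := by
    intro hh
    rw [hh, ind_self, hWo] at h2
    omega
  have hhχ₁ : ∀ ψ, h ψ ≠ χ₁ := by
    intro ψ hh
    rw [← hh, ind_ne (hho ψ), hW0 ψ] at h1
    omega
  have hhχ₂ : ∀ ψ, h ψ ≠ χ₂ := by
    intro ψ hh
    rw [← hh, ind_ne (hho ψ), hW0 ψ] at h2
    omega
  refine ⟨χ₁, χ₂, W χ₁ + ind o χ₁, W χ₂ + ind o χ₂, ε, h, hχ, hχ₁o, hχ₂o, h1, h2, hε,
    fun ψ => ⟨hho ψ, hhχ₁ ψ, hhχ₂ ψ⟩, ?_⟩
  intro ψ i
  rw [hv ψ i]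
  have hWi : W i = -ind o i + (W χ₁ + ind o χ₁) * ind χ₁ i + (W χ₂ + ind o χ₂) * ind χ₂ i := by
    by_cases c1 : i = χ₁
    · rw [c1, ind_self, ind_ne hχ]; ring
    · by_cases c2 : i = χ₂
      · rw [c2, ind_self, ind_ne hχ.symm]; ring
      · have h3 := h0 i c1 c2
        rw [ind_ne c1, ind_ne c2]
        linarith
  rw [hWi]

end main

end Cfsg.Agent.Lib.Lead.Star
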