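import Mathlib
import Cfsg.Agent.Lib.Lead.Star

set_option autoImplicit false

namespace Cfsg.Agent.Lib.Lead.HomoChar

open scoped ComplexConjugate
open Cfsg.Agent.Lib.Lead.Star

variable {ι A : Type*} [Fintype ι] [DecidableEq ι] [AddCommGroup A] [Fintype A] [DecidableEq A]

omit [Fintype ι] [DecidableEq ι] in
theorem sum_three (g : A → ℂ) (c : ℂ) (a b d : A) (hab : a ≠ b) (had : a ≠ d) (hbd : b ≠ d) :
    ∑ x, g x * (if (x = a ∨ x = b ∨ x = d) then c else 0) = c * (g a + g b + g d) := by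
  have h1 : ∀ x, g x * (if (x = a ∨ x = b ∨ x = d) then c else 0)
      = (if x = a then g x * c else 0) + (if x = b then g x * c else 0)
        + (if x = d then g x * c else 0) := by
    intro x
    by_cases h1 : x = a
    · subst h1; simp [hab, had]
    · by_cases h2 : x = b
      · subst h2; simp [h1, hbd]
      · by_cases h3 : x = d
        · subst h3; simp [h1, h2]
        · simp [h1, h2, h3]
  rw [Finset.sum_congr rfl (fun x _ => h1 x), Finset.sum_add_distrib, Finset.sum_add_distrib,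
    Finset.sum_ite_eq', Finset.sum_ite_eq', Finset.sum_ite_eq']
  simp only [Finset.mem_univ, if_true]
  ring

omit [DecidableEq ι] in
theorem plancherel (X : ι → A → ℂ) (al : A ≃+ A)
    (hK : ∀ y y' : A, y ≠ 0 → y' ≠ 0 → ∑ i, X i y * conj (X i y') =
      if (y' = y ∨ y' = al y ∨ y' = al (al y)) then (Fintype.card A : ℂ) else 0)
    (hal1 : ∀ y : A, y ≠ 0 → al y ≠ y) (hal3 : ∀ y, al (al (al y)) = y)
    (f f' : A → ℂ) (hf : f 0 = 0) (hf' : f' 0 = 0) :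
    ∑ i, (∑ y, X i y * f y) * conj (∑ y, X i y * f' y)
      = (Fintype.card A : ℂ) * ∑ y, f y * conj (f' y + f' (al y) + f' (al (al y))) := by
  have step1 : ∀ i, (∑ y, X i y * f y) * conj (∑ y, X i y * f' y)
      = ∑ y, ∑ y', f y * conj (f' y') * (X i y * conj (X i y')) := by
    intro i
    rw [map_sum, Finset.sum_mul_sum]
    apply Finset.sum_congr rfl; intro y _
    apply Finset.sum_congr rfl; intro y' _
    rw [map_mul]; ring
  rw [Finset.sum_congr rfl (fun i _ => step1 i), Finset.sum_comm, Finset.mul_sum]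
  apply Finset.sum_congr rfl
  intro y _
  rw [Finset.sum_comm]
  by_cases hy : y = 0
  · subst hy
    simp [hf]
  · have inner : ∀ y', ∑ i, f y * conj (f' y') * (X i y * conj (X i y'))
        = (f y * conj (f' y')) * (if (y' = y ∨ y' = al y ∨ y' = al (al y))
            then (Fintype.card A : ℂ) else 0) := by
      intro y'
      rw [← Finset.mul_sum]
      by_cases hy' : y' = 0
      · subst hy'
        simp [hf']
      · rw [hK y y' hy hy']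
    rw [Finset.sum_congr rfl (fun y' _ => inner y')]
    have h2 : ∑ y', (f y * conj (f' y')) * (if (y' = y ∨ y' = al y ∨ y' = al (al y))
            then (Fintype.card A : ℂ) else 0)
        = f y * ∑ y', conj (f' y') * (if (y' = y ∨ y' = al y ∨ y' = al (al y))
            then (Fintype.card A : ℂ) else 0) := by
      rw [Finset.mul_sum]
      apply Finset.sum_congr rfl
      intro _ _
      ring
    have hy1 : al y ≠ 0 := by
      intro h
      apply hy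
      have := al.injective (h.trans (map_zero al).symm)
      exact this
    have d1 : y ≠ al y := fun h => hal1 y hy h.symm
    have d3 : al y ≠ al (al y) := fun h => hal1 (al y) hy1 h.symm
    have d2 : y ≠ al (al y) := by
      intro h
      have h3 := congrArg al h
      rw [hal3 y] at h3
      exact d1 h3.symm
    rw [h2, sum_three (fun y' => conj (f' y')) _ y (al y) (al (al y)) d1 d2 d3]
    simp only [map_add]
    ring

omit [Fintype ι] [DecidableEq ι] [DecidableEq A] in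
open Classical in
theorem sum_conj_mul (ψ φ : AddChar A ℂ) :
    ∑ y, conj (ψ y) * φ y = if φ = ψ then (Fintype.card A : ℂ) else 0 := by
  have h1 : ∀ y, conj (ψ y) * φ y = (φ - ψ) y := by
    intro y
    rw [AddChar.sub_apply, AddChar.map_neg_eq_conj, mul_comm]
  rw [Finset.sum_congr rfl (fun y _ => h1 y), AddChar.sum_eq_ite]
  simp only [sub_eq_zero]

/-- composition with the automorphism -/
noncomputable def cmp (al : A ≃+ A) (φ : AddChar A ℂ) : AddChar A ℂ :=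
  φ.compAddMonoidHom al.toAddMonoidHom

omit [Fintype ι] [DecidableEq ι] [Fintype A] [DecidableEq A] in
theorem cmp_apply (al : A ≃+ A) (φ : AddChar A ℂ) (y : A) : cmp al φ y = φ (al y) := rfl

omit [Fintype ι] [DecidableEq ι] [Fintype A] [DecidableEq A] in
theorem cmp_eq_zero (al : A ≃+ A) (φ : AddChar A ℂ) (h : cmp al φ = 0) : φ = 0 := by
  rw [AddChar.eq_zero_iff] at h ⊢
  intro x
  have h1 := h (al.symm x)
  rw [cmp_apply, AddEquiv.apply_symm_apply] at h1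
  exact h1

omit [Fintype ι] [DecidableEq ι] [DecidableEq A] in
theorem no_fix (al : A ≃+ A) (hal1 : ∀ y : A, y ≠ 0 → al y ≠ y) (ψ : AddChar A ℂ)
    (h : cmp al ψ = ψ) : ψ = 0 := by
  have hinj : Function.Injective (fun y : A => al y - y) := by
    intro y y' hyy
    simp only at hyy
    have h1 : al (y - y') = y - y' := by
      rw [map_sub]
      rw [sub_eq_sub_iff_add_eq_add] at hyy ⊢
      rw [hyy, add_comm]
    by_contra hne
    exact hal1 (y - y') (sub_ne_zero.mpr hne) h1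
  have hsurj := Finite.injective_iff_surjective.mp hinj
  rw [AddChar.eq_zero_iff]
  intro x
  obtain ⟨y, rfl⟩ := hsurj x
  simp only
  have h2 : ψ (al y) = ψ y := by rw [← cmp_apply, h]
  rw [sub_eq_add_neg, AddChar.map_add_eq_mul, h2, ← AddChar.map_add_eq_mul, add_neg_cancel,
    AddChar.map_zero_eq_one]

omit [Fintype ι] [DecidableEq ι] [DecidableEq A] in
theorem no_fix2 (al : A ≃+ A) (hal1 : ∀ y : A, y ≠ 0 → al y ≠ y)
    (hal3 : ∀ y, al (al (al y)) = y) (ψ : AddChar A ℂ)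
    (h : cmp al (cmp al ψ) = ψ) : ψ = 0 := by
  apply no_fix al hal1
  have h3 : cmp al (cmp al (cmp al ψ)) = ψ := by
    ext y
    simp only [cmp_apply]
    rw [hal3]
  have h4 : cmp al (cmp al (cmp al ψ)) = cmp al ψ := by
    ext y
    simp only [cmp_apply]
    have := congrArg (fun f : AddChar A ℂ => f (al y)) h
    simpa only [cmp_apply] using this
  rw [← h4, h3]

/-- the relation "same orbit" on characters -/
def rel (al : A ≃+ A) (ψ φ : AddChar A ℂ) : Prop :=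
  φ = ψ ∨ cmp al φ = ψ ∨ cmp al (cmp al φ) = ψ

omit [Fintype ι] [DecidableEq ι] [DecidableEq A] in
open Classical in
theorem exists_five (al : A ≃+ A) (hcard : 16 ≤ Fintype.card A) :
    ∃ ψ₁ ψ₂ ψ₃ ψ₄ ψ₅ : AddChar A ℂ, ψ₁ ≠ 0 ∧ ψ₂ ≠ 0 ∧ ψ₃ ≠ 0 ∧ ψ₄ ≠ 0 ∧ ψ₅ ≠ 0 ∧
      ¬ rel al ψ₁ ψ₂ ∧ ¬ rel al ψ₁ ψ₃ ∧ ¬ rel al ψ₁ ψ₄ ∧ ¬ rel al ψ₁ ψ₅ ∧
      ¬ rel al ψ₂ ψ₃ ∧ ¬ rel al ψ₂ ψ₄ ∧ ¬ rel al ψ₂ ψ₅ ∧
      ¬ rel al ψ₃ ψ₄ ∧ ¬ rel al ψ₃ ψ₅ ∧ ¬ rel al ψ₄ ψ₅ := by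
  have pick : ∀ F : Finset (AddChar A ℂ), F.card < 16 → ∃ ψ, ψ ∉ F := by
    intro F hF
    by_contra hc
    push Not at hc
    have h1 : F = Finset.univ := Finset.eq_univ_iff_forall.mpr hc
    rw [h1, Finset.card_univ, AddChar.card_eq] at hF
    omega
  obtain ⟨bad, hbad⟩ : ∃ bad : AddChar A ℂ → Finset (AddChar A ℂ),
      bad = fun ψ => {ψ, cmp al.symm ψ, cmp al.symm (cmp al.symm ψ)} := ⟨_, rfl⟩
  have hbc : ∀ ψ, (bad ψ).card ≤ 3 := fun ψ => by rw [hbad]; exact Finset.card_le_three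
  have hinv : ∀ φ : AddChar A ℂ, cmp al.symm (cmp al φ) = φ := by
    intro φ
    ext y
    simp only [cmp_apply, AddEquiv.apply_symm_apply]
  have hbr : ∀ ψ φ, rel al ψ φ → φ ∈ bad ψ := by
    intro ψ φ h
    rw [hbad]
    simp only [Finset.mem_insert, Finset.mem_singleton]
    rcases h with h | h | h
    · left; exact h
    · right; left; rw [← h, hinv]
    · right; right; rw [← h, hinv, hinv]
  obtain ⟨ψ₁, h1⟩ := pick {0} (by simp)
  have c1 : (({0} : Finset (AddChar A ℂ)) ∪ bad ψ₁).card ≤ 4 :=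
    le_trans (Finset.card_union_le _ _) (by have := hbc ψ₁; simp; omega)
  obtain ⟨ψ₂, h2⟩ := pick (({0} : Finset (AddChar A ℂ)) ∪ bad ψ₁) (by omega)
  have c2 : ((({0} : Finset (AddChar A ℂ)) ∪ bad ψ₁) ∪ bad ψ₂).card ≤ 7 :=
    le_trans (Finset.card_union_le _ _) (by have := hbc ψ₂; omega)
  obtain ⟨ψ₃, h3⟩ := pick ((({0} : Finset (AddChar A ℂ)) ∪ bad ψ₁) ∪ bad ψ₂) (by omega)
  have c3 : (((({0} : Finset (AddChar A ℂ)) ∪ bad ψ₁) ∪ bad ψ₂) ∪ bad ψ₃).card ≤ 10 :=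
    le_trans (Finset.card_union_le _ _) (by have := hbc ψ₃; omega)
  obtain ⟨ψ₄, h4⟩ := pick (((({0} : Finset (AddChar A ℂ)) ∪ bad ψ₁) ∪ bad ψ₂) ∪ bad ψ₃) (by omega)
  have c4 : ((((({0} : Finset (AddChar A ℂ)) ∪ bad ψ₁) ∪ bad ψ₂) ∪ bad ψ₃) ∪ bad ψ₄).card ≤ 13 :=
    le_trans (Finset.card_union_le _ _) (by have := hbc ψ₄; omega)
  obtain ⟨ψ₅, h5⟩ :=
    pick ((((({0} : Finset (AddChar A ℂ)) ∪ bad ψ₁) ∪ bad ψ₂) ∪ bad ψ₃) ∪ bad ψ₄) (by omega)
  simp only [Finset.mem_union, Finset.mem_singleton, not_or] at h1 h2 h3 h4 h5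
  refine ⟨ψ₁, ψ₂, ψ₃, ψ₄, ψ₅, h1, h2.1, h3.1.1, h4.1.1.1, h5.1.1.1.1, ?_, ?_, ?_, ?_, ?_, ?_, ?_,
    ?_, ?_, ?_⟩
  · exact fun h => h2.2 (hbr _ _ h)
  · exact fun h => h3.1.2 (hbr _ _ h)
  · exact fun h => h4.1.1.2 (hbr _ _ h)
  · exact fun h => h5.1.1.1.2 (hbr _ _ h)
  · exact fun h => h3.2 (hbr _ _ h)
  · exact fun h => h4.1.2 (hbr _ _ h)
  · exact fun h => h5.1.1.2 (hbr _ _ h)
  · exact fun h => h4.2 (hbr _ _ h)
  · exact fun h => h5.1.2 (hbr _ _ h)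
  · exact fun h => h5.2 (hbr _ _ h)

omit [Fintype ι] [DecidableEq ι] in
theorem fourier_inv (f : A → ℂ) (y : A) :
    ∑ ψ : AddChar A ℂ, ((Fintype.card A : ℂ)⁻¹ * ∑ y', f y' * conj (ψ y')) * ψ y = f y := by
  have h1 : ∀ ψ : AddChar A ℂ, ((Fintype.card A : ℂ)⁻¹ * ∑ y', f y' * conj (ψ y')) * ψ y
      = (Fintype.card A : ℂ)⁻¹ * ∑ y', f y' * ψ (y - y') := by
    intro ψ
    rw [mul_assoc, Finset.sum_mul]
    congr 1
    apply Finset.sum_congr rfl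
    intro y' _
    rw [sub_eq_add_neg, AddChar.map_add_eq_mul, AddChar.map_neg_eq_conj]
    ring
  rw [Finset.sum_congr rfl (fun ψ _ => h1 ψ), ← Finset.mul_sum, Finset.sum_comm]
  have h2 : ∀ y', ∑ ψ : AddChar A ℂ, f y' * ψ (y - y')
      = if y' = y then f y' * (Fintype.card A : ℂ) else 0 := by
    intro y'
    rw [← Finset.mul_sum, AddChar.sum_apply_eq_ite]
    by_cases h : y' = y
    · subst h; simp
    · have h3 : y - y' ≠ 0 := sub_ne_zero.mpr (Ne.symm h)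
      simp [h, h3]
  rw [Finset.sum_congr rfl (fun y' _ => h2 y'), Finset.sum_ite_eq']
  simp only [Finset.mem_univ, if_true]
  have hn0 : (Fintype.card A : ℂ) ≠ 0 := by exact_mod_cast Fintype.card_ne_zero
  field_simp

/-- arithmetic at the end -/
theorem arith (a b D : ℤ) (h1 : a + b + D = 1)
    (h2 : a * b * D - b * D - a * D - 9 * (a * b) = 0)
    (ha : ∃ k : ℤ, a = 16 * k - 1) (hb : ∃ k : ℤ, b = 16 * k - 1) : a = -1 ∧ b = -1 := by
  obtain ⟨k₁, hk₁⟩ := ha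
  obtain ⟨k₂, hk₂⟩ := hb
  obtain ⟨K, hK⟩ : ∃ K : ℤ, K = k₁ + k₂ := ⟨_, rfl⟩
  obtain ⟨c, hc⟩ : ∃ c : ℤ, c = a * b - (a + b) + 9 := ⟨_, rfl⟩
  have hD : D = 1 - a - b := by linarith
  have hq : (16 * K + 6) * c = 72 := by
    rw [hc, hK]
    rw [hD] at h2
    have hs : a + b = 16 * (k₁ + k₂) - 2 := by rw [hk₁, hk₂]; ring
    have h3 : (a + b + 8) * (a * b - (a + b) + 9) = 72 := by linear_combination (-1 : ℤ) * h2
    rw [show 16 * (k₁ + k₂) + 6 = a + b + 8 by linarith]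
    exact h3
  have hdvd : (16 * K + 6) ∣ 72 := Dvd.intro _ hq
  have hle1 : 16 * K + 6 ≤ 72 := Int.le_of_dvd (by norm_num) hdvd
  have hle2 : -(16 * K + 6) ≤ 72 := Int.le_of_dvd (by norm_num) ((neg_dvd).mpr hdvd)
  have hKl : -4 ≤ K := by omega
  have hKu : K ≤ 4 := by omega
  have hK0 : K = 0 := by
    interval_cases K <;> omega
  rw [hK0] at hq
  have hc12 : c = 12 := by omega
  have e1 : a + b = -2 := by
    have : a + b = 16 * (k₁ + k₂) - 2 := by rw [hk₁, hk₂]; ring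
    rw [← hK, hK0] at this
    linarith
  have e2 : a * b = 1 := by
    rw [hc12] at hc
    linarith
  have h3 : (a + 1) * (a + 1) = 0 := by linear_combination a * e1 - e2
  have h4 : a + 1 = 0 := by
    rcases mul_eq_zero.mp h3 with h | h <;> exact h
  constructor
  · linarith
  · linarith

open Classical in
theorem homo_struct (X : ι → A → ℂ) (al : A ≃+ A) (o : ι)
    (hn16 : 16 ≤ Fintype.card A)
    (hK : ∀ y y' : A, y ≠ 0 → y' ≠ 0 → ∑ i, X i y * conj (X i y') =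
      if (y' = y ∨ y' = al y ∨ y' = al (al y)) then (Fintype.card A : ℂ) else 0)
    (hK0 : ∀ y : A, y ≠ 0 → ∑ i, X i y * conj (X i 0) = 0)
    (hal1 : ∀ y : A, y ≠ 0 → al y ≠ y) (hal3 : ∀ y, al (al (al y)) = y)
    (hXal : ∀ i y, X i (al y) = X i y)
    (m : ι → AddChar A ℂ → ℤ)
    (hm : ∀ i (ψ : AddChar A ℂ),
      (Fintype.card A : ℂ)⁻¹ * ∑ y, X i y * conj (ψ y) = m i ψ)
    (d : ι → ℤ) (hdpos : ∀ i, 0 < d i) (hd : ∀ i, X i 0 = d i)
    (ho : ∀ y, X o y = 1) :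
    ∃ (χ₁ χ₂ : ι) (ε₁ ε₂ ε : ℤ) (h : AddChar A ℂ → ι), χ₁ ≠ χ₂ ∧ χ₁ ≠ o ∧ χ₂ ≠ o ∧
      (ε₁ = 1 ∨ ε₁ = -1) ∧ (ε₂ = 1 ∨ ε₂ = -1) ∧ (ε = 1 ∨ ε = -1) ∧
      (∀ ψ, h ψ ≠ o ∧ h ψ ≠ χ₁ ∧ h ψ ≠ χ₂) ∧
      ∀ ψ : AddChar A ℂ, ψ ≠ 0 → ∀ i, m i ψ - m i 0
        = -ind o i + ε₁ * ind χ₁ i + ε₂ * ind χ₂ i + ε * ind (h ψ) i := by
  have hn0 : (Fintype.card A : ℂ) ≠ 0 := by exact_mod_cast Fintype.card_ne_zero
  have hdiff : ∀ i (ψ : AddChar A ℂ), ((m i ψ : ℂ) - m i 0)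
      = (Fintype.card A : ℂ)⁻¹ * ∑ y, X i y * (conj (ψ y) - 1) := by
    intro i ψ
    rw [← hm i ψ, ← hm i 0, ← mul_sub, ← Finset.sum_sub_distrib]
    congr 1
    apply Finset.sum_congr rfl
    intro y _
    rw [AddChar.zero_apply, map_one]; ring
  have gram : ∀ ψ φ : AddChar A ℂ, ψ ≠ 0 → φ ≠ 0 →
      ∑ i, ((m i ψ : ℂ) - m i 0) * ((m i φ : ℂ) - m i 0)
        = (if φ = ψ then 1 else 0) + (if cmp al φ = ψ then 1 else 0)
          + (if cmp al (cmp al φ) = ψ then 1 else 0) + 3 := by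
    intro ψ φ hψ hφ
    have e1 : ∀ i, ((m i ψ : ℂ) - m i 0) * ((m i φ : ℂ) - m i 0)
        = ((Fintype.card A : ℂ)⁻¹ * (Fintype.card A : ℂ)⁻¹) *
          ((∑ y, X i y * (conj (ψ y) - 1)) * conj (∑ y, X i y * (conj (φ y) - 1))) := by
      intro i
      have hc : ((m i φ : ℂ) - m i 0) = conj ((m i φ : ℂ) - m i 0) := by simp
      calc ((m i ψ : ℂ) - m i 0) * ((m i φ : ℂ) - m i 0)
          = ((m i ψ : ℂ) - m i 0) * conj ((m i φ : ℂ) - m i 0) := by rw [← hc]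
        _ = _ := by
          rw [hdiff i ψ, hdiff i φ, map_mul, map_inv₀, Complex.conj_natCast]; ring
    rw [Finset.sum_congr rfl (fun i _ => e1 i), ← Finset.mul_sum,
      plancherel X al hK hal1 hal3 (fun y => conj (ψ y) - 1) (fun y => conj (φ y) - 1)
        (by simp) (by simp)]
    have e2 : ∀ y, (conj (ψ y) - 1) * conj ((conj (φ y) - 1) + (conj (φ (al y)) - 1)
          + (conj (φ (al (al y))) - 1))
        = conj (ψ y) * φ y + conj (ψ y) * (cmp al φ) y + conj (ψ y) * (cmp al (cmp al φ)) y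
          - 3 * (conj (ψ y) * (0 : AddChar A ℂ) y) - conj ((0 : AddChar A ℂ) y) * φ y
          - conj ((0 : AddChar A ℂ) y) * (cmp al φ) y
          - conj ((0 : AddChar A ℂ) y) * (cmp al (cmp al φ)) y + 3 := by
      intro y
      simp only [cmp_apply, AddChar.zero_apply, map_sub, map_add, map_one, Complex.conj_conj]
      ring
    rw [Finset.sum_congr rfl (fun y _ => e2 y)]
    simp only [Finset.sum_add_distrib, Finset.sum_sub_distrib, ← Finset.mul_sum, sum_conj_mul]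
    have z1 : ¬ ((0 : AddChar A ℂ) = ψ) := fun h => hψ h.symm
    have z2 : ¬ (cmp al φ = 0) := fun h => hφ (cmp_eq_zero al φ h)
    have z3 : ¬ (cmp al (cmp al φ) = 0) := fun h => z2 (cmp_eq_zero al _ h)
    simp only [if_neg z1, if_neg hφ, if_neg z2, if_neg z3, Finset.sum_const, Finset.card_univ,
      nsmul_eq_mul]
    split_ifs <;> field_simp <;> ring
  have m_comp : ∀ i (φ : AddChar A ℂ), m i (cmp al φ) = m i φ := by
    intro i φ
    have h1 : ∑ y, X i y * conj (cmp al φ y) = ∑ y, X i y * conj (φ y) := by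
      calc ∑ y, X i y * conj (cmp al φ y)
          = ∑ y, (fun z => X i z * conj (φ z)) (al.toEquiv y) := by
            apply Finset.sum_congr rfl
            intro y _
            show X i y * conj (φ (al y)) = X i (al y) * conj (φ (al y))
            rw [hXal]
        _ = ∑ y, X i y * conj (φ y) :=
            Equiv.sum_comp al.toEquiv (fun z => X i z * conj (φ z))
    have h2 : (m i (cmp al φ) : ℂ) = m i φ := by rw [← hm, ← hm, h1]
    exact_mod_cast h2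
  have mo : ∀ ψ : AddChar A ℂ, (m o ψ : ℂ) = if (0 : AddChar A ℂ) = ψ then 1 else 0 := by
    intro ψ
    rw [← hm o ψ]
    have h1 : ∑ y, X o y * conj (ψ y) = ∑ y, conj (ψ y) * (0 : AddChar A ℂ) y := by
      apply Finset.sum_congr rfl
      intro y _
      rw [ho, AddChar.zero_apply]; ring
    rw [h1, sum_conj_mul]
    split_ifs <;> simp [hn0]
  -- the star hypotheses
  obtain ⟨v, hvdef⟩ : ∃ v : {ψ : AddChar A ℂ // ψ ≠ 0} → ι → ℤ,
      v = fun ψ i => m i ψ.1 - m i 0 := ⟨_, rfl⟩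
  obtain ⟨r, hrdef⟩ : ∃ r : {ψ : AddChar A ℂ // ψ ≠ 0} → {ψ : AddChar A ℂ // ψ ≠ 0} → Prop,
      r = fun ψ φ => rel al ψ.1 φ.1 := ⟨_, rfl⟩
  have hv : ∀ ψ i, v ψ i = m i ψ.1 - m i 0 := fun ψ i => by rw [hvdef]
  have hvc : ∀ (ψ : {ψ : AddChar A ℂ // ψ ≠ 0}) i, ((v ψ i : ℤ) : ℂ) = (m i ψ.1 : ℂ) - m i 0 :=
    fun ψ i => by rw [hv]; push_cast; ring
  have hdv : ∀ ψ, ∑ i, v ψ i * d i = 0 := by
    intro ψ
    have e : ∀ i, ((m i ψ.1 : ℂ) - m i 0) * (d i : ℂ)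
        = (Fintype.card A : ℂ)⁻¹ * ∑ y, (conj (ψ.1 y) - 1) * (X i y * conj (X i 0)) := by
      intro i
      rw [hdiff, hd i, map_intCast, mul_assoc, Finset.sum_mul]
      congr 1
      apply Finset.sum_congr rfl
      intro y _
      ring
    have h1 : ((∑ i, v ψ i * d i : ℤ) : ℂ) = 0 := by
      push_cast
      rw [Finset.sum_congr rfl (fun i _ => by rw [hvc ψ i, e i]), ← Finset.mul_sum,
        Finset.sum_comm]
      have h2 : ∀ y, ∑ i, (conj (ψ.1 y) - 1) * (X i y * conj (X i 0)) = 0 := by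
        intro y
        rw [← Finset.mul_sum]
        by_cases hy : y = 0
        · subst hy; simp
        · rw [hK0 y hy, mul_zero]
      simp [h2]
    exact_mod_cast h1
  have hrv : ∀ ψ φ, r ψ φ → v ψ = v φ := by
    intro ψ φ h
    rw [hrdef] at h
    funext i
    rw [hv, hv]
    rcases h with h | h | h
    · rw [h]
    · rw [← h, m_comp]
    · rw [← h, m_comp, m_comp]
  have hnorm : ∀ ψ, ∑ i, v ψ i * v ψ i = 4 := by
    intro ψ
    have h1 : ((∑ i, v ψ i * v ψ i : ℤ) : ℂ) = 4 := by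
      push_cast
      rw [Finset.sum_congr rfl (fun i _ => by rw [hvc ψ i]), gram ψ.1 ψ.1 ψ.2 ψ.2]
      have z1 : ¬ (cmp al ψ.1 = ψ.1) := fun h => ψ.2 (no_fix al hal1 _ h)
      have z2 : ¬ (cmp al (cmp al ψ.1) = ψ.1) := fun h => ψ.2 (no_fix2 al hal1 hal3 _ h)
      rw [if_pos rfl, if_neg z1, if_neg z2]
      norm_num
    exact_mod_cast h1
  have hip : ∀ ψ φ, ¬ r ψ φ → ∑ i, v ψ i * v φ i = 3 := by
    intro ψ φ h
    rw [hrdef] at h
    simp only [rel, not_or] at h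
    have h1 : ((∑ i, v ψ i * v φ i : ℤ) : ℂ) = 3 := by
      push_cast
      rw [Finset.sum_congr rfl (fun i _ => by rw [hvc ψ i, hvc φ i]), gram ψ.1 φ.1 ψ.2 φ.2]
      rw [if_neg h.1, if_neg h.2.1, if_neg h.2.2]
      norm_num
    exact_mod_cast h1
  have hov : ∀ ψ, v ψ o = -1 := by
    intro ψ
    have h1 : ((v ψ o : ℤ) : ℂ) = -1 := by
      rw [hvc, mo, mo, if_neg (fun h => ψ.2 h.symm), if_pos rfl]
      norm_num
    exact_mod_cast h1
  obtain ⟨ψ₁, ψ₂, ψ₃, ψ₄, ψ₅, n1, n2, n3, n4, n5, h12, h13, h14, h15, h23, h24, h25, h34, h35,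
    h45⟩ := exists_five al hn16
  obtain ⟨χ₁, χ₂, ε₁, ε₂, ε, h, c1, c2, c3, c4, c5, c6, c7, c8⟩ :=
    star v r d hdpos hdv hrv hnorm hip o hov ⟨ψ₁, n1⟩ ⟨ψ₂, n2⟩ ⟨ψ₃, n3⟩ ⟨ψ₄, n4⟩ ⟨ψ₅, n5⟩
      (by rw [hrdef]; exact h12) (by rw [hrdef]; exact h13) (by rw [hrdef]; exact h14)
      (by rw [hrdef]; exact h15) (by rw [hrdef]; exact h23) (by rw [hrdef]; exact h24)
      (by rw [hrdef]; exact h25) (by rw [hrdef]; exact h34) (by rw [hrdef]; exact h35)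
      (by rw [hrdef]; exact h45)
  refine ⟨χ₁, χ₂, ε₁, ε₂, ε, fun ψ => if hψ : ψ ≠ 0 then h ⟨ψ, hψ⟩ else h ⟨ψ₁, n1⟩,
    c1, c2, c3, c4, c5, c6, ?_, ?_⟩
  · intro ψ
    by_cases hψ : ψ ≠ 0
    · simp only [dif_pos hψ]; exact c7 _
    · simp only [dif_neg hψ]; exact c7 _
  · intro ψ hψ i
    simp only [dif_pos hψ]
    rw [← c8 ⟨ψ, hψ⟩ i, hv]

open Classical in
theorem homo_main (X : ι → A → ℂ) (al : A ≃+ A) (o : ι)
    (hn16 : 16 ∣ Fintype.card A)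
    (hK : ∀ y y' : A, y ≠ 0 → y' ≠ 0 → ∑ i, X i y * conj (X i y') =
      if (y' = y ∨ y' = al y ∨ y' = al (al y)) then (Fintype.card A : ℂ) else 0)
    (hK0 : ∀ y : A, y ≠ 0 → ∑ i, X i y * conj (X i 0) = 0)
    (hal1 : ∀ y : A, y ≠ 0 → al y ≠ y) (hal3 : ∀ y, al (al (al y)) = y)
    (hXal : ∀ i y, X i (al y) = X i y)
    (hint : ∀ i (ψ : AddChar A ℂ), ∃ k : ℤ,
      (Fintype.card A : ℂ)⁻¹ * ∑ y, X i y * conj (ψ y) = k)
    (hdeg : ∀ i, ∃ d : ℤ, 0 < d ∧ X i 0 = d)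
    (ho : ∀ y, X o y = 1)
    (t : A) (ht : t ≠ 0) (hy2 : ∃ y : A, y + y ≠ 0)
    (hr : ∀ ψ : AddChar A ℂ, (∀ y : A, y + y = 0 → ψ y = 1) →
      (∑ i, ((Fintype.card A : ℂ)⁻¹ * ∑ y, X i y * conj (1 - ψ y)) * (X i t) ^ 2 / X i 0 = 0) ∧
      (∑ i, ((Fintype.card A : ℂ)⁻¹ * ∑ y, X i y * conj (1 - ψ y)) * X i 0 = 0) ∧
      (∑ i, ((Fintype.card A : ℂ)⁻¹ * ∑ y, X i y * conj (1 - ψ y)) * X i t = 0)) :
    ∃ i, i ≠ o ∧ ∀ y, X i y = 1 := by
  have hn0 : (Fintype.card A : ℂ) ≠ 0 := by exact_mod_cast Fintype.card_ne_zero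
  have hcard16 : 16 ≤ Fintype.card A := Nat.le_of_dvd Fintype.card_pos hn16
  choose m hm using hint
  choose d hdpos hd using hdeg
  obtain ⟨χ₁, χ₂, ε₁, ε₂, ε, h, c1, c2, c3, c4, c5, c6, c7, c8⟩ :=
    homo_struct X al o hcard16 hK hK0 hal1 hal3 hXal m hm d hdpos hd ho
  have hF : ∀ i y, X i y = ∑ ψ : AddChar A ℂ, (m i ψ : ℂ) * ψ y := by
    intro i y
    rw [← fourier_inv (X i) y]
    apply Finset.sum_congr rfl
    intro ψ _
    rw [hm]
  have row : ∀ (χ : ι) (e : ℤ), (∀ ψ : AddChar A ℂ, ψ ≠ 0 → m χ ψ - m χ 0 = e) →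
      ∀ y, X χ y = ((m χ 0 : ℂ) + e) * (if y = 0 then (Fintype.card A : ℂ) else 0) - e := by
    intro χ e hrow y
    rw [hF χ y]
    have h1 : ∀ ψ : AddChar A ℂ, (m χ ψ : ℂ) * ψ y
        = ((m χ 0 : ℂ) + e) * ψ y - (if ψ = 0 then (e : ℂ) * ψ y else 0) := by
      intro ψ
      by_cases hψ : ψ = 0
      · subst hψ
        rw [if_pos rfl, AddChar.zero_apply]; ring
      · rw [if_neg hψ, sub_zero]
        have h2 : m χ ψ = m χ 0 + e := by have := hrow ψ hψ; linarith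
        rw [h2]; push_cast; ring
    rw [Finset.sum_congr rfl (fun ψ _ => h1 ψ), Finset.sum_sub_distrib, ← Finset.mul_sum,
      AddChar.sum_apply_eq_ite, Finset.sum_ite_eq']
    simp
  have row1 : ∀ ψ : AddChar A ℂ, ψ ≠ 0 → m χ₁ ψ - m χ₁ 0 = ε₁ := by
    intro ψ hψ
    rw [c8 ψ hψ χ₁, ind_ne c2, ind_self, ind_ne c1, ind_ne (c7 ψ).2.1.symm]
    ring
  have row2 : ∀ ψ : AddChar A ℂ, ψ ≠ 0 → m χ₂ ψ - m χ₂ 0 = ε₂ := by
    intro ψ hψ
    rw [c8 ψ hψ χ₂, ind_ne c3, ind_ne c1.symm, ind_self, ind_ne (c7 ψ).2.2.symm]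
    ring
  have V1 : ∀ y, y ≠ 0 → X χ₁ y = -(ε₁ : ℂ) := by
    intro y hy
    rw [row χ₁ ε₁ row1 y, if_neg hy]; ring
  have V2 : ∀ y, y ≠ 0 → X χ₂ y = -(ε₂ : ℂ) := by
    intro y hy
    rw [row χ₂ ε₂ row2 y, if_neg hy]; ring
  have D1 : d χ₁ = (m χ₁ 0 + ε₁) * (Fintype.card A : ℤ) - ε₁ := by
    have h1 := row χ₁ ε₁ row1 0
    rw [if_pos rfl, hd χ₁] at h1
    exact_mod_cast h1
  have D2 : d χ₂ = (m χ₂ 0 + ε₂) * (Fintype.card A : ℤ) - ε₂ := by
    have h1 := row χ₂ ε₂ row2 0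
    rw [if_pos rfl, hd χ₂] at h1
    exact_mod_cast h1
  -- the special character
  obtain ⟨y₀, hy₀⟩ := hy2
  obtain ⟨ψ₀, hψ₀⟩ := (AddChar.exists_apply_ne_zero).mpr hy₀
  obtain ⟨ψs, hψs⟩ : ∃ ψs : AddChar A ℂ, ψs = ψ₀ + ψ₀ := ⟨_, rfl⟩
  have hs_apply : ∀ y, ψs y = ψ₀ (y + y) := by
    intro y
    rw [hψs, AddChar.add_apply, AddChar.map_add_eq_mul]
  have hψs0 : ψs ≠ 0 := by
    intro h0
    apply hψ₀
    rw [← hs_apply, h0, AddChar.zero_apply]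
  have htriv : ∀ y, y + y = 0 → ψs y = 1 := by
    intro y hy
    rw [hs_apply, hy, AddChar.map_zero_eq_one]
  obtain ⟨R1, R2, R3⟩ := hr ψs htriv
  have hcoef : ∀ i, (Fintype.card A : ℂ)⁻¹ * ∑ y, X i y * conj (1 - ψs y)
      = ((ind o i : ℤ) : ℂ) - ε₁ * ind χ₁ i - ε₂ * ind χ₂ i - ε * ind (h ψs) i := by
    intro i
    have h1 : (Fintype.card A : ℂ)⁻¹ * ∑ y, X i y * conj (1 - ψs y)
        = (m i 0 : ℂ) - m i ψs := by
      rw [← hm i 0, ← hm i ψs, ← mul_sub, ← Finset.sum_sub_distrib]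
      congr 1
      apply Finset.sum_congr rfl
      intro y _
      rw [AddChar.zero_apply, map_sub, map_one]; ring
    rw [h1]
    have h2 := c8 ψs hψs0 i
    have h3 : ((m i ψs : ℂ) - m i 0)
        = ((-ind o i + ε₁ * ind χ₁ i + ε₂ * ind χ₂ i + ε * ind (h ψs) i : ℤ) : ℂ) := by
      rw [← h2]; push_cast; ring
    push_cast at h3 ⊢
    linear_combination (-1 : ℂ) * h3
  have hsumF : ∀ F : ι → ℂ,
      ∑ i, ((Fintype.card A : ℂ)⁻¹ * ∑ y, X i y * conj (1 - ψs y)) * F i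
        = F o - ε₁ * F χ₁ - ε₂ * F χ₂ - ε * F (h ψs) := by
    intro F
    have e : ∀ i, ((Fintype.card A : ℂ)⁻¹ * ∑ y, X i y * conj (1 - ψs y)) * F i
        = (if i = o then F i else 0) - ε₁ * (if i = χ₁ then F i else 0)
          - ε₂ * (if i = χ₂ then F i else 0) - ε * (if i = h ψs then F i else 0) := by
      intro i
      rw [hcoef i]
      simp only [ind]
      split_ifs <;> push_cast <;> ring
    rw [Finset.sum_congr rfl (fun i _ => e i)]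
    simp only [Finset.sum_sub_distrib, ← Finset.mul_sum, Finset.sum_ite_eq', Finset.mem_univ,
      if_true]
  have he1 : (ε₁ : ℂ) * ε₁ = 1 := by rcases c4 with rfl | rfl <;> norm_num
  have he2 : (ε₂ : ℂ) * ε₂ = 1 := by rcases c5 with rfl | rfl <;> norm_num
  have he3 : (ε : ℂ) * ε = 1 := by rcases c6 with rfl | rfl <;> norm_num
  -- R3: value of the third character at t
  have T3 : X (h ψs) t = 3 * (ε : ℂ) := by
    have h1 := hsumF (fun i => X i t)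
    rw [R3] at h1
    rw [ho, V1 t ht, V2 t ht] at h1
    linear_combination (ε : ℂ) * h1 + (-(X (h ψs) t)) * he3 + (ε : ℂ) * he1 + (ε : ℂ) * he2
  -- R2: degrees
  have Dsum : (1 : ℂ) = ε₁ * d χ₁ + ε₂ * d χ₂ + ε * d (h ψs) := by
    have h1 := hsumF (fun i => X i 0)
    rw [R2] at h1
    rw [ho, hd χ₁, hd χ₂, hd (h ψs)] at h1
    linear_combination (-1 : ℂ) * h1
  -- R1
  have hd1 : (d χ₁ : ℂ) ≠ 0 := by exact_mod_cast (hdpos χ₁).ne'
  have hd2 : (d χ₂ : ℂ) ≠ 0 := by exact_mod_cast (hdpos χ₂).ne'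
  have hd3 : (d (h ψs) : ℂ) ≠ 0 := by exact_mod_cast (hdpos (h ψs)).ne'
  have hT : (d χ₁ : ℂ) * d χ₂ * d (h ψs) - ε₁ * d χ₂ * d (h ψs) - ε₂ * d χ₁ * d (h ψs)
      - 9 * ε * d χ₁ * d χ₂ = 0 := by
    have h1 := hsumF (fun i => (X i t) ^ 2 / X i 0)
    have h2 : ∑ i, ((Fintype.card A : ℂ)⁻¹ * ∑ y, X i y * conj (1 - ψs y))
        * ((X i t) ^ 2 / X i 0) = 0 := by
      rw [← R1]
      apply Finset.sum_congr rfl
      intro i _
      rw [mul_div_assoc]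
    rw [h2] at h1
    rw [ho, ho, V1 t ht, V2 t ht, T3, hd χ₁, hd χ₂, hd (h ψs)] at h1
    have hu1 : (d χ₁ : ℂ) * (d χ₁ : ℂ)⁻¹ = 1 := mul_inv_cancel₀ hd1
    have hu2 : (d χ₂ : ℂ) * (d χ₂ : ℂ)⁻¹ = 1 := mul_inv_cancel₀ hd2
    have hu3 : (d (h ψs) : ℂ) * (d (h ψs) : ℂ)⁻¹ = 1 := mul_inv_cancel₀ hd3
    rw [div_eq_mul_inv, div_eq_mul_inv, div_eq_mul_inv, div_eq_mul_inv] at h1
    linear_combination (-(d χ₁ : ℂ) * d χ₂ * d (h ψs)) * h1
      + ((ε₁ : ℂ) * d χ₂ * d (h ψs) * d χ₁ * (d χ₁ : ℂ)⁻¹) * he1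
      + ((ε₁ : ℂ) * d χ₂ * d (h ψs)) * hu1
      + ((ε₂ : ℂ) * d χ₁ * d (h ψs) * d χ₂ * (d χ₂ : ℂ)⁻¹) * he2
      + ((ε₂ : ℂ) * d χ₁ * d (h ψs)) * hu2
      + (9 * (ε : ℂ) * d χ₁ * d χ₂ * d (h ψs) * (d (h ψs) : ℂ)⁻¹) * he3
      + (9 * (ε : ℂ) * d χ₁ * d χ₂) * hu3
  -- integer versions
  have hTz : d χ₁ * d χ₂ * d (h ψs) - ε₁ * d χ₂ * d (h ψs) - ε₂ * d χ₁ * d (h ψs)
      - 9 * ε * d χ₁ * d χ₂ = 0 := by exact_mod_cast hT
  have hDz : ε₁ * d χ₁ + ε₂ * d χ₂ + ε * d (h ψs) = 1 := by exact_mod_cast Dsum.symm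
  obtain ⟨n', hn'⟩ := hn16
  have hcz : (Fintype.card A : ℤ) = 16 * n' := by exact_mod_cast hn'
  have key := arith (ε₁ * d χ₁) (ε₂ * d χ₂) (ε * d (h ψs)) hDz
    (by
      rcases c4 with rfl | rfl <;> rcases c5 with rfl | rfl <;> rcases c6 with rfl | rfl <;>
        first | linear_combination hTz | linear_combination (-1 : ℤ) * hTz)
    ⟨ε₁ * (m χ₁ 0 + ε₁) * n', by
      rw [D1, hcz]
      rcases c4 with rfl | rfl <;> ring⟩
    ⟨ε₂ * (m χ₂ 0 + ε₂) * n', by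
      rw [D2, hcz]
      rcases c5 with rfl | rfl <;> ring⟩
  have hε₁ : ε₁ = -1 := by
    rcases c4 with h1 | h1
    · have h2 := key.1
      have h3 := hdpos χ₁
      rw [h1] at h2
      linarith
    · exact h1
  have hd1' : d χ₁ = 1 := by
    have h2 := key.1
    rw [hε₁] at h2
    linarith
  refine ⟨χ₁, c2, ?_⟩
  intro y
  by_cases hy : y = 0
  · rw [hy, hd χ₁, hd1']; norm_num
  · rw [V1 y hy, hε₁]; norm_num

end Cfsg.Agent.Lib.Lead.HomoChar
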