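import Mathlib
import Cfsg.Agent.Lib.Lead.SimpleSylC
import Cfsg.Agent.Lib.Helper8.ActionAux

/-!
Counting data attached to an involution centralizing a Sylow subgroup of prime order in a
simple group.
-/

set_option autoImplicit false
set_option linter.style.haveILetI false
set_option linter.unusedSectionVars false
set_option linter.unusedVariables false

namespace Cfsg.Agent.Lib.Lead.SimpleSyl

open scoped Pointwise
open Cfsg.Agent.Lib.Lead.SylowTwoP Cfsg.Agent.Lib.Lead.SylowKP Cfsg.Agent.Lib.Helper8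

universe u

variable {G : Type u} [Group G]

/-- Conjugation is compatible with centralizing a Sylow subgroup. -/
theorem cent_equivariant [Finite G] (p : ℕ) [Fact p.Prime] (g : G) (R : Sylow p G) (a : G)
    (ha : a ∈ Subgroup.centralizer ((R : Subgroup G) : Set G)) :
    g * a * g⁻¹ ∈ Subgroup.centralizer (((g • R : Sylow p G) : Subgroup G) : Set G) := by
  rw [Subgroup.mem_centralizer_iff] at ha ⊢
  intro y hy
  have hy' : g⁻¹ * y * g ∈ (R : Subgroup G) := (mem_smul_sylow g y R).mp hy
  have h1 := ha _ hy'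
  calc y * (g * a * g⁻¹) = g * ((g⁻¹ * y * g) * a) * g⁻¹ := by group
    _ = g * (a * (g⁻¹ * y * g)) * g⁻¹ := by rw [h1]
    _ = g * a * g⁻¹ * y := by group

/-- Conjugation is compatible with normalizing a Sylow subgroup. -/
theorem norm_equivariant [Finite G] (p : ℕ) [Fact p.Prime] (g : G) (R : Sylow p G) (a : G)
    (ha : a ∈ Subgroup.normalizer ((R : Subgroup G) : Set G)) :
    g * a * g⁻¹ ∈ Subgroup.normalizer (((g • R : Sylow p G) : Subgroup G) : Set G) := by
  apply Sylow.smul_eq_iff_mem_normalizer.mp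
  have h1 : a • R = R := Sylow.smul_eq_iff_mem_normalizer.mpr ha
  rw [← mul_smul, inv_mul_cancel_right, mul_smul, h1]

theorem class_formula_cent [Finite G] (p : ℕ) [Fact p.Prime] (z : G) (P : Sylow p G) :
    (conjSet z).ncard * (Cn p z).ncard = Nat.card (Sylow p G) *
      {t | t ∈ conjSet z ∧ t ∈ Subgroup.centralizer ((P : Subgroup G) : Set G)}.ncard :=
  class_formula p (fun (R : Sylow p G) (a : G) =>
    a ∈ Subgroup.centralizer ((R : Subgroup G) : Set G))
    (fun g R a ha => cent_equivariant p g R a ha) z P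

theorem class_formula_norm [Finite G] (p : ℕ) [Fact p.Prime] (z : G) (P : Sylow p G) :
    (conjSet z).ncard * (Fx p z).ncard = Nat.card (Sylow p G) *
      {t | t ∈ conjSet z ∧ t ∈ Subgroup.normalizer ((P : Subgroup G) : Set G)}.ncard := by
  have h := class_formula p (fun (R : Sylow p G) (a : G) =>
    a ∈ Subgroup.normalizer ((R : Subgroup G) : Set G))
    (fun g R a ha => norm_equivariant p g R a ha) z P
  have h2 : {R : Sylow p G | z ∈ Subgroup.normalizer ((R : Subgroup G) : Set G)} = Fx p z := by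
    ext R
    exact Sylow.smul_eq_iff_mem_normalizer.symm
  rw [h2] at h
  exact h

/-- The number of conjugates of `z` is congruent mod `p` to the number of them centralizing a
given Sylow `p`-subgroup. -/
theorem conj_cent_modEq [Finite G] (p : ℕ) [Fact p.Prime] (z : G) (P : Sylow p G) :
    (conjSet z).ncard ≡
      {t | t ∈ conjSet z ∧ t ∈ Subgroup.centralizer ((P : Subgroup G) : Set G)}.ncard
      [MOD p] := by
  have h := gen_modEq (fun (x : G) (a : G) => x * a * x⁻¹) (fun a => by simp)
    (fun x y a => by simp [mul_assoc]) p (P : Subgroup G) P.2 (conjSet z)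
    (fun x _ a ha => conjSet_conj z x a ha)
  have h2 : {a | a ∈ conjSet z ∧ ∀ x ∈ (P : Subgroup G), x * a * x⁻¹ = a} =
      {t | t ∈ conjSet z ∧ t ∈ Subgroup.centralizer ((P : Subgroup G) : Set G)} := by
    ext t
    constructor
    · rintro ⟨ht, hfix⟩
      refine ⟨ht, ?_⟩
      rw [Subgroup.mem_centralizer_iff]
      intro x hx
      have h3 := hfix x hx
      calc x * t = (x * t * x⁻¹) * x := by group
        _ = t * x := by rw [h3]
    · rintro ⟨ht, hc⟩
      refine ⟨ht, fun x hx => ?_⟩
      have h3 := Subgroup.mem_centralizer_iff.mp hc x hx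
      rw [h3, mul_inv_cancel_right]
  rw [h2] at h
  exact h

/-- Orbit–stabilizer for conjugacy classes. -/
theorem conjSet_ncard_mul_card [Finite G] (z : G) :
    (conjSet z).ncard * Nat.card ↥(Subgroup.centralizer ({z} : Set G)) = Nat.card G := by
  letI act : MulAction G ↥(conjSet z) :=
    { smul := fun g y => ⟨g * y.1 * g⁻¹, conjSet_conj z g y.1 y.2⟩
      one_smul := fun y => Subtype.ext (by
        show 1 * y.1 * 1⁻¹ = y.1
        simp)
      mul_smul := fun g g' y => Subtype.ext (by
        show g * g' * y.1 * (g * g')⁻¹ = g * (g' * y.1 * g'⁻¹) * g⁻¹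
        simp [mul_assoc]) }
  haveI : MulAction.IsPretransitive G ↥(conjSet z) := by
    refine ⟨fun y y' => ?_⟩
    obtain ⟨g, hg⟩ := y.2
    obtain ⟨g', hg'⟩ := y'.2
    refine ⟨g' * g⁻¹, Subtype.ext ?_⟩
    show g' * g⁻¹ * y.1 * (g' * g⁻¹)⁻¹ = y'.1
    rw [← hg, ← hg']
    group
  have h1 := MulAction.index_stabilizer_of_transitive G
    (⟨z, mem_conjSet_self z⟩ : ↥(conjSet z))
  have h2 : MulAction.stabilizer G (⟨z, mem_conjSet_self z⟩ : ↥(conjSet z)) =
      Subgroup.centralizer ({z} : Set G) := by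
    ext g
    rw [MulAction.mem_stabilizer_iff, Subgroup.mem_centralizer_iff]
    constructor
    · intro hg t ht
      rw [Set.mem_singleton_iff] at ht
      rw [ht]
      have h3 : g * z * g⁻¹ = z := congrArg Subtype.val hg
      calc z * g = g * z * g⁻¹ * g := by rw [h3]
        _ = g * z := by group
    · intro hg
      apply Subtype.ext
      show g * z * g⁻¹ = z
      rw [← hg z rfl]
      group
  rw [h2] at h1
  rw [← Nat.card_coe_set_eq, ← h1]
  exact Subgroup.index_mul_card _

/-- Involutions normalizing but not centralizing a Sylow subgroup of odd prime order lie in a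
single coset of its centralizer. -/
theorem invol_coset_card_le [Finite G] (p : ℕ) [Fact p.Prime] (P : Sylow p G)
    (hPc : Nat.card ↥(P : Subgroup G) = p) (I : Set G)
    (hI : ∀ s ∈ I, s ^ 2 = 1 ∧ s ∈ Subgroup.normalizer ((P : Subgroup G) : Set G) ∧
      s ∉ Subgroup.centralizer ((P : Subgroup G) : Set G)) :
    I.ncard ≤ Nat.card ↥(Subgroup.centralizer ((P : Subgroup G) : Set G)) := by
  rcases Set.eq_empty_or_nonempty I with h | ⟨s0, hs0⟩
  · rw [h, Set.ncard_empty]
    exact Nat.zero_le _
  · have h2 : Nat.card ↥(Subgroup.centralizer ((P : Subgroup G) : Set G)) =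
        ((Subgroup.centralizer ((P : Subgroup G) : Set G) : Subgroup G) : Set G).ncard := rfl
    rw [h2]
    obtain ⟨h02, h0N, h0C⟩ := hI s0 hs0
    have hinv0 := inverts_of_not_centralizes p P hPc s0 h02 h0N h0C
    apply Set.ncard_le_ncard_of_injOn (fun s => s0⁻¹ * s)
    · intro s hs
      obtain ⟨hs2, hsN, hsC⟩ := hI s hs
      have hinv := inverts_of_not_centralizes p P hPc s hs2 hsN hsC
      show s0⁻¹ * s ∈ Subgroup.centralizer ((P : Subgroup G) : Set G)
      rw [Subgroup.mem_centralizer_iff]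
      intro y hy
      have e0 := hinv0 y hy
      have e1 := hinv y hy
      calc y * (s0⁻¹ * s) = s0⁻¹ * (s0 * y * s0⁻¹) * s := by group
        _ = s0⁻¹ * (s * y * s⁻¹) * s := by rw [e0, e1]
        _ = s0⁻¹ * s * y := by group
    · intro a _ b _ hab
      exact mul_left_cancel hab

/-- A subgroup of the normalizer of `P` whose nontrivial elements normalize no other Sylow
`p`-subgroup has order dividing `n_p - 1`. -/
theorem cent_free_dvd [Finite G] (p : ℕ) [Fact p.Prime] (P : Sylow p G) (Q : Subgroup G)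
    (hQN : Q ≤ Subgroup.normalizer ((P : Subgroup G) : Set G))
    (hfix : ∀ x ∈ Q, x ≠ 1 → ∀ R : Sylow p G, x • R = R → R = P) :
    Nat.card ↥Q ∣ Nat.card (Sylow p G) - 1 := by
  letI act : MulAction ↥Q {R : Sylow p G // R ≠ P} :=
    { smul := fun x R => ⟨(x : G) • R.1, by
        intro h
        apply R.2
        have h1 : (x : G) • P = P := Sylow.smul_eq_iff_mem_normalizer.mpr (hQN x.2)
        have h2 : (x : G) • R.1 = (x : G) • P := by rw [h, h1]
        exact MulAction.injective (x : G) h2⟩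
      one_smul := fun R => Subtype.ext (one_smul G R.1)
      mul_smul := fun x y R => Subtype.ext (mul_smul (x : G) (y : G) R.1) }
  have h1 := card_dvd_of_free_action (Z := ↥Q) (X := {R : Sylow p G // R ≠ P}) (by
    intro x R hxR
    by_contra hx1
    have h2 : (x : G) • R.1 = R.1 := congrArg Subtype.val hxR
    exact R.2 (hfix (x : G) x.2 (fun h => hx1 (Subtype.ext h)) R.1 h2))
  have h3 : Nat.card {R : Sylow p G // R ≠ P} = Nat.card (Sylow p G) - 1 := by
    have h4 : {R : Sylow p G | R ≠ P} = (Set.univ : Set (Sylow p G)) \ {P} := by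
      ext R
      simp
    have h5 : Nat.card {R : Sylow p G // R ≠ P} = {R : Sylow p G | R ≠ P}.ncard := rfl
    rw [h5, h4, Set.ncard_sdiff_singleton_of_mem (Set.mem_univ P), Set.ncard_univ]
  rw [h3] at h1
  exact h1

/-- The orbit of `R` under the centralizer of an element `z` centralizing `R`. -/
theorem cent_orbit [Finite G] (p : ℕ) [Fact p.Prime] (R : Sylow p G) (z : G)
    (hzC : z ∈ Subgroup.centralizer ((R : Subgroup G) : Set G)) :
    ∃ m : ℕ, m % p = 1 ∧ m ≤ (Cn p z).ncard ∧
      m ∣ Nat.card ↥(Subgroup.centralizer ({z} : Set G)) ∧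
      (m = 1 → Subgroup.centralizer ({z} : Set G) ≤
        Subgroup.normalizer ((R : Subgroup G) : Set G)) := by
  obtain ⟨O, hO⟩ : ∃ O : Set (Sylow p G),
      O = {R' | ∃ h ∈ Subgroup.centralizer ({z} : Set G), h • R = R'} := ⟨_, rfl⟩
  have hRO : R ∈ O := by
    rw [hO]
    exact ⟨1, Subgroup.one_mem _, one_smul _ _⟩
  have hOorb : O = MulAction.orbit ↥(Subgroup.centralizer ({z} : Set G)) R := by
    rw [hO]
    ext R'
    constructor
    · rintro ⟨h, hh, rfl⟩
      exact ⟨⟨h, hh⟩, rfl⟩
    · rintro ⟨h, rfl⟩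
      exact ⟨(h : G), h.2, rfl⟩
  refine ⟨O.ncard, ?_, ?_, ?_, ?_⟩
  · apply card_inv_mem p R O _ hRO
    intro x hx R' hR'
    rw [hO] at hR' ⊢
    obtain ⟨h, hh, rfl⟩ := hR'
    refine ⟨x * h, Subgroup.mul_mem _ ?_ hh, mul_smul x h R⟩
    rw [Subgroup.mem_centralizer_iff]
    intro t ht
    rw [Set.mem_singleton_iff] at ht
    rw [ht]
    exact (Subgroup.mem_centralizer_iff.mp hzC x hx).symm
  · apply Set.ncard_le_ncard _ (Set.toFinite _)
    intro R' hR'
    rw [hO] at hR'
    obtain ⟨h, hh, rfl⟩ := hR'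
    rw [mem_Cn]
    have h1 := cent_equivariant p h R z hzC
    have h2 : h * z * h⁻¹ = z := by
      have h3 := Subgroup.mem_centralizer_iff.mp hh z rfl
      rw [← h3, mul_inv_cancel_right]
    rw [h2] at h1
    exact h1
  · have h1 := MulAction.index_stabilizer ↥(Subgroup.centralizer ({z} : Set G)) R
    rw [hOorb, ← h1]
    exact Subgroup.index_dvd_card _
  · intro h1 h hh
    obtain ⟨R0, hR0⟩ := Set.ncard_eq_one.mp h1
    have e1 : R ∈ O := hRO
    have e2 : h • R ∈ O := by
      rw [hO]
      exact ⟨h, hh, rfl⟩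
    rw [hR0, Set.mem_singleton_iff] at e1 e2
    exact Sylow.smul_eq_iff_mem_normalizer.mp (e2.trans e1.symm)

/-- Counting data for an involution `z` centralizing a Sylow `p`-subgroup `R` (`p` odd) of a
nonabelian simple group. -/
theorem invol_cent_data [Finite G] [IsSimpleGroup G] (hnc : ¬ IsMulCommutative G) (p : ℕ)
    [Fact p.Prime] (hp2 : p ≠ 2) (hn : Nat.card (Sylow p G) ≠ 1) (R : Sylow p G)
    (hab : (R : Subgroup G) ≤ Subgroup.centralizer ((R : Subgroup G) : Set G)) (z : G)
    (hz1 : z ≠ 1) (hz2 : z ^ 2 = 1)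
    (hzC : z ∈ Subgroup.centralizer ((R : Subgroup G) : Set G)) :
    (Fx p z).ncard % p = 1 ∧ (Fx p z).ncard % 4 = Nat.card (Sylow p G) % 4 ∧
    (Fx p z).ncard < Nat.card (Sylow p G) ∧
    (Cn p z).ncard % p = 1 ∧ (Cn p z).ncard ≤ (Fx p z).ncard ∧
    (conjSet z).ncard * (Cn p z).ncard = Nat.card (Sylow p G) *
      {t | t ∈ conjSet z ∧ t ∈ Subgroup.centralizer ((R : Subgroup G) : Set G)}.ncard ∧
    (conjSet z).ncard * (Fx p z).ncard = Nat.card (Sylow p G) *
      {t | t ∈ conjSet z ∧ t ∈ Subgroup.normalizer ((R : Subgroup G) : Set G)}.ncard ∧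
    (conjSet z).ncard % p =
      {t | t ∈ conjSet z ∧ t ∈ Subgroup.centralizer ((R : Subgroup G) : Set G)}.ncard % p ∧
    (conjSet z).ncard * Nat.card ↥(Subgroup.centralizer ({z} : Set G)) = Nat.card G ∧
    ({t | t ∈ conjSet z ∧ t ∈ Subgroup.centralizer ((R : Subgroup G) : Set G)}.ncard + 1) *
      Nat.card ↥(R : Subgroup G) ≤
      Nat.card ↥(Subgroup.centralizer ((R : Subgroup G) : Set G)) ∧
    1 ≤ {t | t ∈ conjSet z ∧ t ∈ Subgroup.centralizer ((R : Subgroup G) : Set G)}.ncard ∧
    {t | t ∈ conjSet z ∧ t ∈ Subgroup.normalizer ((R : Subgroup G) : Set G)}.ncard +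
      Nat.card ↥(Subgroup.centralizer ((R : Subgroup G) : Set G)) ≤
      {t | t ∈ conjSet z ∧ t ∈ Subgroup.centralizer ((R : Subgroup G) : Set G)}.ncard +
      Nat.card ↥(Subgroup.normalizer ((R : Subgroup G) : Set G)) := by
  refine ⟨fx_cent_mod p R z hzC, fx_invol hnc p z hz2, fx_lt p hn z hz1, cn_mod p R z hzC,
    Set.ncard_le_ncard (cn_subset_fx p z) (Set.toFinite _), class_formula_cent p z R,
    class_formula_norm p z R, conj_cent_modEq p z R, conjSet_ncard_mul_card z, ?_, ?_, ?_⟩
  · -- conjugates of `z` in `C(R)`, together with `1`, are elements of square one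
    have hinv := card_invol_cent_mul_le p hp2 R hab
    have hsub : insert 1 {t | t ∈ conjSet z ∧
        t ∈ Subgroup.centralizer ((R : Subgroup G) : Set G)} ⊆
        {t : G | t ∈ Subgroup.centralizer ((R : Subgroup G) : Set G) ∧ t ^ 2 = 1} := by
      intro t ht
      rcases ht with rfl | ⟨⟨g, rfl⟩, htC⟩
      · exact ⟨Subgroup.one_mem _, one_pow 2⟩
      · refine ⟨htC, ?_⟩
        rw [pow_two]
        calc g * z * g⁻¹ * (g * z * g⁻¹) = g * (z * z) * g⁻¹ := by group
          _ = 1 := by rw [← pow_two, hz2]; group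
    have h1notin : (1 : G) ∉ {t | t ∈ conjSet z ∧
        t ∈ Subgroup.centralizer ((R : Subgroup G) : Set G)} := by
      rintro ⟨⟨g, hg⟩, -⟩
      apply hz1
      have : z = g⁻¹ * (g * z * g⁻¹) * g := by group
      rw [this, hg]
      group
    have hcard := Set.ncard_le_ncard hsub (Set.toFinite _)
    rw [Set.ncard_insert_of_notMem h1notin (Set.toFinite _)] at hcard
    exact (Nat.mul_le_mul_right _ hcard).trans hinv
  · rw [Nat.succ_le_iff, Set.ncard_pos (Set.toFinite _)]
    exact ⟨z, mem_conjSet_self z, hzC⟩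
  · have hCN : ((Subgroup.centralizer ((R : Subgroup G) : Set G) : Subgroup G) : Set G) ⊆
        ((Subgroup.normalizer ((R : Subgroup G) : Set G) : Subgroup G) : Set G) :=
      fun t ht => Subgroup.centralizer_le_normalizer _ ht
    have h1 : (((Subgroup.normalizer ((R : Subgroup G) : Set G) : Subgroup G) : Set G) \
        ((Subgroup.centralizer ((R : Subgroup G) : Set G) : Subgroup G) : Set G)).ncard +
        ((Subgroup.centralizer ((R : Subgroup G) : Set G) : Subgroup G) : Set G).ncard =
        ((Subgroup.normalizer ((R : Subgroup G) : Set G) : Subgroup G) : Set G).ncard :=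
      Set.ncard_sdiff_add_ncard_of_subset hCN (Set.toFinite _)
    have h2 : Nat.card ↥(Subgroup.centralizer ((R : Subgroup G) : Set G)) =
        ((Subgroup.centralizer ((R : Subgroup G) : Set G) : Subgroup G) : Set G).ncard := rfl
    have h3 : Nat.card ↥(Subgroup.normalizer ((R : Subgroup G) : Set G)) =
        ((Subgroup.normalizer ((R : Subgroup G) : Set G) : Subgroup G) : Set G).ncard := rfl
    have hsub : {t | t ∈ conjSet z ∧ t ∈ Subgroup.normalizer ((R : Subgroup G) : Set G)} ⊆
        {t | t ∈ conjSet z ∧ t ∈ Subgroup.centralizer ((R : Subgroup G) : Set G)} ∪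
        (((Subgroup.normalizer ((R : Subgroup G) : Set G) : Subgroup G) : Set G) \
        ((Subgroup.centralizer ((R : Subgroup G) : Set G) : Subgroup G) : Set G)) := by
      rintro t ⟨ht, htN⟩
      by_cases htC : t ∈ Subgroup.centralizer ((R : Subgroup G) : Set G)
      · left
        exact ⟨ht, htC⟩
      · right
        exact ⟨htN, htC⟩
    have h4 := Set.ncard_le_ncard hsub (Set.toFinite _)
    have h5 := Set.ncard_union_le {t | t ∈ conjSet z ∧
      t ∈ Subgroup.centralizer ((R : Subgroup G) : Set G)}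
      (((Subgroup.normalizer ((R : Subgroup G) : Set G) : Subgroup G) : Set G) \
        ((Subgroup.centralizer ((R : Subgroup G) : Set G) : Subgroup G) : Set G))
    rw [h2, h3]
    omega

end Cfsg.Agent.Lib.Lead.SimpleSyl
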