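import Mathlib
import Cfsg.Agent.Lib.Lead.SylowKP

/-!
A minimal group with exactly 21 Sylow 5-subgroups: fixed-point counting on the set of Sylow
5-subgroups, and the order of the centralizer of a Sylow 5-subgroup.
-/

set_option autoImplicit false
set_option linter.style.haveILetI false
set_option linter.unusedSectionVars false

namespace Cfsg.Agent.Lib.Lead.Syl21

open scoped Pointwise
open Cfsg.Agent.Lib.Lead.SylowTwoP Cfsg.Agent.Lib.Lead.SylowKP

universe u

local instance fact5 : Fact (Nat.Prime 5) := ⟨by norm_num⟩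
local instance fact3 : Fact (Nat.Prime 3) := ⟨by norm_num⟩
local instance fact2 : Fact (Nat.Prime 2) := ⟨by norm_num⟩

/-- Data of a group of least order with exactly 21 Sylow 5-subgroups. -/
structure Min21 (G : Type u) [Group G] [Finite G] : Prop where
  h21 : Nat.card (Sylow 5 G) = 21
  hF1 : ∀ H : Subgroup G, (∀ P : Sylow 5 G, (P : Subgroup G) ≤ H) → H = ⊤
  hF : ∀ g : G, (∀ R : Sylow 5 G, g • R = R) → g = 1

section general
variable {G : Type u} [Group G] [Finite G]

/-- The set of Sylow 5-subgroups normalised by `g`. -/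
def Fx (g : G) : Set (Sylow 5 G) := {R | g • R = R}

theorem mem_Fx (g : G) (R : Sylow 5 G) : R ∈ Fx g ↔ g • R = R := Iff.rfl

/-- Orbit counting modulo `q` for a `q`-subgroup acting on an invariant set of Sylow subgroups. -/
theorem inv_modEq (q : ℕ) [Fact q.Prime] (H : Subgroup G) (hH : IsPGroup q H)
    (S : Set (Sylow 5 G)) (hS : ∀ x ∈ H, ∀ R ∈ S, x • R ∈ S) :
    S.ncard ≡ {R | R ∈ S ∧ ∀ x ∈ H, x • R = R}.ncard [MOD q] := by
  classical
  letI act : MulAction ↥H ↥S :=
    { smul := fun x R => ⟨(x : G) • (R : Sylow 5 G), hS x x.2 R R.2⟩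
      one_smul := fun R => Subtype.ext (one_smul G (R : Sylow 5 G))
      mul_smul := fun x y R => Subtype.ext (mul_smul (x : G) (y : G) (R : Sylow 5 G)) }
  have h1 := hH.card_modEq_card_fixedPoints (↥S)
  rw [Nat.card_coe_set_eq] at h1
  have h2 : Nat.card (MulAction.fixedPoints ↥H ↥S) =
      {R | R ∈ S ∧ ∀ x ∈ H, x • R = R}.ncard := by
    rw [← Nat.card_coe_set_eq]
    refine Nat.card_congr ⟨fun R => ⟨((R : ↥S) : Sylow 5 G), R.1.2, fun x hx => ?_⟩,
      fun R => ⟨⟨R.1, R.2.1⟩, fun x => ?_⟩, fun R => rfl, fun R => rfl⟩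
    · have := R.2 ⟨x, hx⟩
      exact congrArg Subtype.val this
    · exact Subtype.ext (R.2.2 x x.2)
  rw [h2] at h1
  exact h1

theorem isPGroup_zpowers (q : ℕ) (g : G) (n : ℕ) (hg : g ^ q ^ n = 1) :
    IsPGroup q (Subgroup.zpowers g) := by
  rintro ⟨x, hx⟩
  obtain ⟨i, rfl⟩ := Subgroup.mem_zpowers_iff.mp hx
  refine ⟨n, ?_⟩
  apply Subtype.ext
  show (g ^ i) ^ q ^ n = 1
  rw [← zpow_natCast, ← zpow_mul, mul_comm, zpow_mul, zpow_natCast, hg, one_zpow]

/-- Orbit counting modulo `q` for an element of `q`-power order. -/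
theorem inv_modEq_elt (q : ℕ) [Fact q.Prime] (g : G) (n : ℕ) (hg : g ^ q ^ n = 1)
    (S : Set (Sylow 5 G)) (hS : ∀ R ∈ S, g • R ∈ S) :
    S.ncard ≡ {R | R ∈ S ∧ g • R = R}.ncard [MOD q] := by
  have hpow : ∀ x ∈ Subgroup.zpowers g, ∃ m : ℕ, g ^ m = x := by
    intro x hx
    exact (Submonoid.mem_powers_iff x g).mp (mem_powers_iff_mem_zpowers.mpr hx)
  have h1 := inv_modEq q (Subgroup.zpowers g) (isPGroup_zpowers q g n hg) S (by
    intro x hx R hR
    obtain ⟨m, rfl⟩ := hpow x hx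
    induction m with
    | zero => simpa using hR
    | succ m ih =>
      rw [pow_succ', mul_smul]
      exact hS _ (ih (Subgroup.pow_mem _ (Subgroup.mem_zpowers g) m)))
  have h2 : {R | R ∈ S ∧ ∀ x ∈ Subgroup.zpowers g, x • R = R} = {R | R ∈ S ∧ g • R = R} := by
    ext R
    constructor
    · rintro ⟨hR, hfix⟩
      exact ⟨hR, hfix g (Subgroup.mem_zpowers g)⟩
    · rintro ⟨hR, hfix⟩
      refine ⟨hR, fun x hx => ?_⟩
      obtain ⟨m, rfl⟩ := hpow x hx
      induction m with
      | zero => simp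
      | succ m ih =>
        rw [pow_succ', mul_smul, ih (Subgroup.pow_mem _ (Subgroup.mem_zpowers g) m), hfix]
  rw [h2] at h1
  exact h1

/-- A `P`-invariant set of Sylow subgroups containing `P` has size `≡ 1 mod 5`. -/
theorem card_inv_mem (P : Sylow 5 G) (S : Set (Sylow 5 G))
    (hS : ∀ x ∈ (P : Subgroup G), ∀ R ∈ S, x • R ∈ S) (hP : P ∈ S) : S.ncard % 5 = 1 := by
  have h1 := inv_modEq 5 (P : Subgroup G) P.2 S hS
  have h2 : {R | R ∈ S ∧ ∀ x ∈ (P : Subgroup G), x • R = R} = {P} := by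
    ext R
    rw [Set.mem_singleton_iff]
    constructor
    · rintro ⟨-, hfix⟩
      symm
      apply sylow_le_of_le_normalizer
      intro x hx
      exact Sylow.smul_eq_iff_mem_normalizer.mp (hfix x hx)
    · rintro rfl
      exact ⟨hP, fun x hx => Sylow.smul_eq_iff_mem_normalizer.mpr (Subgroup.le_normalizer hx)⟩
  rw [h2, Set.ncard_singleton] at h1
  exact h1

/-- A `P`-invariant set of Sylow subgroups not containing `P` has size divisible by 5. -/
theorem card_inv_not_mem (P : Sylow 5 G) (S : Set (Sylow 5 G))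
    (hS : ∀ x ∈ (P : Subgroup G), ∀ R ∈ S, x • R ∈ S) (hP : P ∉ S) : 5 ∣ S.ncard := by
  have h1 := inv_modEq 5 (P : Subgroup G) P.2 S hS
  have h2 : {R | R ∈ S ∧ ∀ x ∈ (P : Subgroup G), x • R = R} = ∅ := by
    ext R
    simp only [Set.mem_ofPred_eq, Set.mem_empty_iff_false, iff_false, not_and]
    intro hR hfix
    apply hP
    have : P = R := by
      apply sylow_le_of_le_normalizer
      intro x hx
      exact Sylow.smul_eq_iff_mem_normalizer.mp (hfix x hx)
    rw [this]; exact hR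
  rw [h2, Set.ncard_empty] at h1
  exact (Nat.modEq_zero_iff_dvd).mp h1

theorem Fx_inv_of_comm (g : G) (H : Subgroup G) (hc : ∀ x ∈ H, x * g = g * x) :
    ∀ x ∈ H, ∀ R ∈ Fx g, x • R ∈ Fx g := by
  intro x hx R hR
  rw [mem_Fx] at hR ⊢
  rw [← mul_smul, ← hc x hx, mul_smul, hR]

theorem cent_fx_mod (P : Sylow 5 G) (g : G)
    (hg : g ∈ Subgroup.centralizer ((P : Subgroup G) : Set G)) : (Fx g).ncard % 5 = 1 := by
  apply card_inv_mem P
  · exact Fx_inv_of_comm g _ (fun x hx => Subgroup.mem_centralizer_iff.mp hg x hx)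
  · exact Sylow.smul_eq_iff_mem_normalizer.mpr (Subgroup.centralizer_le_normalizer _ hg)

theorem exists_pow_prime_order (q : ℕ) (hq : q.Prime) (g : G) (hg1 : g ≠ 1) (n : ℕ)
    (hg : g ^ q ^ n = 1) : ∃ j : ℕ, orderOf (g ^ j) = q := by
  have h1 : orderOf g ∣ q ^ n := orderOf_dvd_of_pow_eq_one hg
  obtain ⟨m, -, hm⟩ := (Nat.dvd_prime_pow hq).mp h1
  have hm0 : m ≠ 0 := by
    rintro rfl
    rw [pow_zero, orderOf_eq_one_iff] at hm
    exact hg1 hm
  exact ⟨orderOf g / q, orderOf_pow_orderOf_div (orderOf_pos g).ne' (hm ▸ dvd_pow_self q hm0)⟩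

theorem Fx_pow_subset (g : G) (j : ℕ) : Fx g ⊆ Fx (g ^ j) := by
  intro R hR
  rw [mem_Fx] at hR ⊢
  induction j with
  | zero => simp
  | succ j ih => rw [pow_succ', mul_smul, ih, hR]

end general

section main
variable {G : Type u} [Group G] [Finite G]

theorem Min21.card (h : Min21 G) (P : Sylow 5 G) : Nat.card ↥(P : Subgroup G) = 5 :=
  (tameK (k := 4) (by norm_num) (show Nat.card (Sylow 5 G) = 4 * 5 + 1 from h.h21) (by norm_num)
    h.hF).1 P

theorem Min21.bot (h : Min21 G) (P Q : Sylow 5 G) (hPQ : P ≠ Q) :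
    (P : Subgroup G) ⊓ Q = ⊥ :=
  (tameK (k := 4) (by norm_num) (show Nat.card (Sylow 5 G) = 4 * 5 + 1 from h.h21) (by norm_num)
    h.hF).2 P Q hPQ

theorem Min21.free (h : Min21 G) (P R : Sylow 5 G) (hPR : P ≠ R) (x : G)
    (hx : x ∈ (P : Subgroup G)) (hxR : x • R = R) : x = 1 :=
  free_act h.bot P R hPR x hx hxR

theorem Min21.fx_le (h : Min21 G) (g : G) : (Fx g).ncard ≤ 21 := by
  have := Set.ncard_le_card (Fx g)
  rw [h.h21] at this
  exact this

theorem Min21.fx_lt (h : Min21 G) (g : G) (hg : g ≠ 1) : (Fx g).ncard < 21 := by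
  apply lt_of_le_of_ne (h.fx_le g)
  intro h1
  apply hg
  apply h.hF
  intro R
  have h2 : Fx g = Set.univ := by
    apply Set.eq_of_subset_of_ncard_le (Set.subset_univ _)
    rw [Set.ncard_univ, h.h21, h1]
  have : R ∈ Fx g := by rw [h2]; exact Set.mem_univ R
  exact this

/-- An involution normalises `≡ 1 mod 4` Sylow 5-subgroups (it acts as an even permutation). -/
theorem Min21.fx_invol (h : Min21 G) (t : G) (ht1 : t ≠ 1) (ht2 : t ^ 2 = 1) :
    (Fx t).ncard % 4 = 1 := by
  classical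
  haveI : Fintype (Sylow 5 G) := Fintype.ofFinite _
  obtain ⟨τ, hτ⟩ : ∃ τ : Equiv.Perm (Sylow 5 G), τ = MulAction.toPerm t := ⟨_, rfl⟩
  have hτapp : ∀ R, τ R = t • R := by intro R; rw [hτ]; rfl
  have hτo : orderOf τ = 2 := by
    apply orderOf_eq_prime
    · ext R
      rw [pow_two, Equiv.Perm.mul_apply, hτapp, hτapp, ← mul_smul, ← pow_two, ht2, one_smul]; rfl
    · intro h1
      apply ht1
      apply h.hF
      intro R
      rw [← hτapp, h1]; rfl
  obtain ⟨n, hn⟩ := Equiv.Perm.cycleType_prime_order (σ := τ) (by rw [hτo]; exact Nat.prime_two)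
  rw [hτo] at hn
  have hsum : τ.cycleType.sum = τ.support.card := Equiv.Perm.sum_cycleType τ
  rw [hn, Multiset.sum_replicate, smul_eq_mul] at hsum
  have hsign : Equiv.Perm.sign τ = 1 := by
    have h1 := hom_trivial h.hF1 (Equiv.Perm.sign.comp (MulAction.toPermHom G (Sylow 5 G)))
      (by rw [Nat.card_eq_fintype_card]; decide) t
    rw [MonoidHom.comp_apply] at h1
    have h2 : (MulAction.toPermHom G (Sylow 5 G)) t = τ := by rw [hτ]; rfl
    rw [h2] at h1
    exact h1
  rw [Equiv.Perm.sign_of_cycleType, hn, Multiset.sum_replicate, Multiset.card_replicate,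
    smul_eq_mul] at hsign
  have heven : Even ((n + 1) * 2 + (n + 1)) :=
    (neg_one_pow_eq_one_iff_even (R := ℤˣ) (by decide)).mp hsign
  have heven' : Even (n + 1) := by
    rcases heven with ⟨r, hr⟩
    exact ⟨r - (n + 1), by omega⟩
  have hfix : (Fx t).ncard + τ.support.card = 21 := by
    have h1 := Finset.card_add_card_compl τ.support
    rw [← Nat.card_eq_fintype_card, h.h21] at h1
    have h2 : (Fx t).ncard = (τ.supportᶜ).card := by
      rw [← Set.ncard_coe_finset]
      congr 1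
      ext R
      simp [Fx, hτapp]
    rw [h2]
    omega
  rcases heven' with ⟨r, hr⟩
  omega

/-- A central involution of the centralizer fixes only `P`. -/
theorem Min21.cent_invol (h : Min21 G) (P : Sylow 5 G) (t : G)
    (htC : t ∈ Subgroup.centralizer ((P : Subgroup G) : Set G)) (ht1 : t ≠ 1) (ht2 : t ^ 2 = 1)
    (R : Sylow 5 G) (hR : t • R = R) : R = P := by
  have h5 := cent_fx_mod P t htC
  have h4 := h.fx_invol t ht1 ht2
  have hlt := h.fx_lt t ht1
  have h1 : (Fx t).ncard = 1 := by omega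
  obtain ⟨a, ha⟩ := Set.ncard_eq_one.mp h1
  have hP : P ∈ Fx t :=
    Sylow.smul_eq_iff_mem_normalizer.mpr (Subgroup.centralizer_le_normalizer _ htC)
  have hR' : R ∈ Fx t := hR
  rw [ha, Set.mem_singleton_iff] at hP hR'
  rw [hP, hR']

/-- A nonidentity 2-element of the centralizer fixes only `P`. -/
theorem Min21.cent_two (h : Min21 G) (P : Sylow 5 G) (x : G)
    (hxC : x ∈ Subgroup.centralizer ((P : Subgroup G) : Set G)) (hx1 : x ≠ 1) (n : ℕ)
    (hx2 : x ^ 2 ^ n = 1) (R : Sylow 5 G) (hR : x • R = R) : R = P := by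
  obtain ⟨j, hj⟩ := exists_pow_prime_order 2 Nat.prime_two x hx1 n hx2
  have ht1 : x ^ j ≠ 1 := by
    intro h1
    rw [h1, orderOf_one] at hj
    norm_num at hj
  have ht2 : (x ^ j) ^ 2 = 1 := by rw [← hj]; exact pow_orderOf_eq_one _
  exact h.cent_invol P (x ^ j) (Subgroup.pow_mem _ hxC j) ht1 ht2 R (Fx_pow_subset x j hR)

theorem Min21.cent_two_fx (h : Min21 G) (P : Sylow 5 G) (x : G)
    (hxC : x ∈ Subgroup.centralizer ((P : Subgroup G) : Set G)) (hx1 : x ≠ 1) (n : ℕ)
    (hx2 : x ^ 2 ^ n = 1) : (Fx x).ncard = 1 := by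
  have : Fx x = {P} := by
    ext R
    rw [Set.mem_singleton_iff]
    constructor
    · intro hR
      exact h.cent_two P x hxC hx1 n hx2 R hR
    · rintro rfl
      exact Sylow.smul_eq_iff_mem_normalizer.mpr (Subgroup.centralizer_le_normalizer _ hxC)
  rw [this, Set.ncard_singleton]

/-- A nonidentity 3-element of the centralizer fixes exactly six Sylow 5-subgroups. -/
theorem Min21.cent_three (h : Min21 G) (P : Sylow 5 G) (g : G)
    (hgC : g ∈ Subgroup.centralizer ((P : Subgroup G) : Set G)) (hg1 : g ≠ 1) (n : ℕ)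
    (hg3 : g ^ 3 ^ n = 1) : (Fx g).ncard = 6 := by
  have h5 := cent_fx_mod P g hgC
  have hlt := h.fx_lt g hg1
  have h3 := inv_modEq_elt 3 g n hg3 Set.univ (fun R _ => Set.mem_univ _)
  have h2 : {R | R ∈ (Set.univ : Set (Sylow 5 G)) ∧ g • R = R} = Fx g := by
    ext R; simp [Fx]
  rw [h2, Set.ncard_univ, h.h21] at h3
  unfold Nat.ModEq at h3
  omega

/-- Elements of prime order in the centralizer have order 2, 3 or 5. -/
theorem Min21.cent_prime (h : Min21 G) (P : Sylow 5 G) (g : G)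
    (hgC : g ∈ Subgroup.centralizer ((P : Subgroup G) : Set G)) (q : ℕ) (hq : q.Prime)
    (hgq : orderOf g = q) : q = 2 ∨ q = 3 ∨ q = 5 := by
  haveI : Fact q.Prime := ⟨hq⟩
  have hg1 : g ≠ 1 := by
    rintro rfl
    rw [orderOf_one] at hgq
    exact hq.ne_one hgq.symm
  have h5 := cent_fx_mod P g hgC
  have hlt := h.fx_lt g hg1
  have h3 := inv_modEq_elt q g 1 (by rw [pow_one, ← hgq]; exact pow_orderOf_eq_one g) Set.univ
    (fun R _ => Set.mem_univ _)
  have h2 : {R | R ∈ (Set.univ : Set (Sylow 5 G)) ∧ g • R = R} = Fx g := by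
    ext R; simp [Fx]
  rw [h2, Set.ncard_univ, h.h21] at h3
  have hdvd : q ∣ 21 - (Fx g).ncard := (Nat.modEq_iff_dvd' hlt.le).mp h3.symm
  have h60 : q ∣ 60 := by
    have h6 : 21 - (Fx g).ncard ∣ 60 := by
      have : (Fx g).ncard = 1 ∨ (Fx g).ncard = 6 ∨ (Fx g).ncard = 11 ∨ (Fx g).ncard = 16 := by
        omega
      rcases this with h7 | h7 | h7 | h7 <;> rw [h7] <;> norm_num
    exact hdvd.trans h6
  have hle : q ≤ 60 := Nat.le_of_dvd (by norm_num) h60
  have h2' := hq.two_le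
  interval_cases q <;> first | omega | (exfalso; revert hq; norm_num)

/-- Burnside orbit counting: if all nonidentity elements of `H` fix the same number `f` of Sylow
5-subgroups then `|H|` divides `21 - f`. -/
theorem burnside_dvd (H : Subgroup G) (f : ℕ) (hf : f ≤ 21) (h21 : Nat.card (Sylow 5 G) = 21)
    (hH : ∀ x ∈ H, x ≠ 1 → (Fx x).ncard = f) : Nat.card H ∣ 21 - f := by
  classical
  haveI : Fintype (Sylow 5 G) := Fintype.ofFinite _
  haveI : Fintype ↥H := Fintype.ofFinite _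
  have hB := MulAction.sum_card_fixedBy_eq_card_orbits_mul_card_group ↥H (Sylow 5 G)
  have hterm : ∀ a : ↥H, Fintype.card (MulAction.fixedBy (Sylow 5 G) a) =
      f + if a = 1 then 21 - f else 0 := by
    intro a
    have h0 : Fintype.card (MulAction.fixedBy (Sylow 5 G) a) = (Fx (a : G)).ncard := by
      rw [← Nat.card_eq_fintype_card, Nat.card_coe_set_eq]
      rfl
    rw [h0]
    split_ifs with ha
    · subst ha
      have : Fx ((1 : ↥H) : G) = Set.univ := by
        ext R; simp [Fx]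
      rw [this, Set.ncard_univ, h21]
      omega
    · rw [hH a a.2 (fun h => ha (Subtype.ext h))]
      rfl
  rw [Finset.sum_congr rfl (fun a _ => hterm a), Finset.sum_add_distrib, Finset.sum_const,
    Finset.sum_ite_eq' Finset.univ (1 : ↥H), if_pos (Finset.mem_univ _), Finset.card_univ,
    smul_eq_mul, ← Nat.card_eq_fintype_card] at hB
  have h1 : Nat.card ↥H ∣ Nat.card ↥H * f + (21 - f) := ⟨_, hB.trans (mul_comm _ _)⟩
  exact (Nat.dvd_add_right (dvd_mul_right _ _)).mp h1

/-- The centralizer of a Sylow 5-subgroup has order dividing 60. -/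
theorem Min21.card_cent_dvd (h : Min21 G) (P : Sylow 5 G) :
    Nat.card ↥(Subgroup.centralizer ((P : Subgroup G) : Set G)) ∣ 60 := by
  rw [Nat.dvd_iff_prime_pow_dvd_dvd]
  intro q k hq hqk
  rcases Nat.eq_zero_or_pos k with rfl | hk
  · simp
  haveI : Fact q.Prime := ⟨hq⟩
  obtain ⟨K, hK⟩ := Sylow.exists_subgroup_card_pow_prime q hqk
  obtain ⟨Q, hQdef⟩ : ∃ Q : Subgroup G,
      Q = K.map (Subgroup.centralizer ((P : Subgroup G) : Set G)).subtype := ⟨_, rfl⟩
  have hQc : Nat.card ↥Q = q ^ k := by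
    rw [hQdef, ← hK]
    exact (Nat.card_congr (K.equivMapOfInjective _ (Subgroup.subtype_injective _)).toEquiv).symm
  have hQC : Q ≤ Subgroup.centralizer ((P : Subgroup G) : Set G) := by
    rw [hQdef]; exact Subgroup.map_subtype_le K
  have hpowQ : ∀ x ∈ Q, x ^ q ^ k = 1 := by
    intro x hx
    have h1 : (⟨x, hx⟩ : ↥Q) ^ Nat.card ↥Q = 1 := pow_card_eq_one'
    rw [hQc] at h1
    exact congrArg Subtype.val h1
  have hq235 : q = 2 ∨ q = 3 ∨ q = 5 := by
    have hdvd : q ∣ Nat.card ↥Q := by rw [hQc]; exact dvd_pow_self q hk.ne'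
    obtain ⟨g, hg⟩ := exists_prime_orderOf_dvd_card' (G := ↥Q) q hdvd
    exact h.cent_prime P (g : G) (hQC g.2) q hq (by rw [Subgroup.orderOf_coe]; exact hg)
  rcases hq235 with rfl | rfl | rfl
  · have h1 : Nat.card ↥Q ∣ 21 - 1 := burnside_dvd Q 1 (by norm_num) h.h21
      (fun x hx hx1 => h.cent_two_fx P x (hQC hx) hx1 k (hpowQ x hx))
    rw [hQc] at h1
    exact h1.trans (by norm_num)
  · have h1 : Nat.card ↥Q ∣ 21 - 6 := burnside_dvd Q 6 (by norm_num) h.h21
      (fun x hx hx1 => h.cent_three P x (hQC hx) hx1 k (hpowQ x hx))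
    rw [hQc] at h1
    exact h1.trans (by norm_num)
  · obtain ⟨Q', hQ'⟩ := (IsPGroup.of_card hQc).exists_le_sylow
    have h1 := Subgroup.card_dvd_of_le hQ'
    rw [hQc, h.card Q'] at h1
    exact h1.trans (by norm_num)

/-- Elements of the centralizer fixing a second Sylow subgroup: the stabiliser has order
dividing 3. -/
theorem Min21.stab_card_dvd (h : Min21 G) (P R : Sylow 5 G) (hR : R ≠ P) :
    Nat.card ↥(MulAction.stabilizer G R ⊓ Subgroup.centralizer ((P : Subgroup G) : Set G)) ∣ 3 := by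
  obtain ⟨S, hSdef⟩ : ∃ S : Subgroup G,
      S = MulAction.stabilizer G R ⊓ Subgroup.centralizer ((P : Subgroup G) : Set G) := ⟨_, rfl⟩
  rw [← hSdef]
  have h60 : Nat.card ↥S ∣ 60 := by
    rw [hSdef]
    exact (Subgroup.card_dvd_of_le inf_le_right).trans (h.card_cent_dvd P)
  have h2 : ¬ 2 ∣ Nat.card ↥S := by
    intro hdvd
    obtain ⟨g, hg⟩ := exists_prime_orderOf_dvd_card' (G := ↥S) 2 hdvd
    have hgS : (g : G) ∈ MulAction.stabilizer G R ⊓
        Subgroup.centralizer ((P : Subgroup G) : Set G) := by rw [← hSdef]; exact g.2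
    have hg' : orderOf (g : G) = 2 := by rw [Subgroup.orderOf_coe]; exact hg
    have hg1 : (g : G) ≠ 1 := by
      intro h1; rw [h1, orderOf_one] at hg'; norm_num at hg'
    have hg2 : (g : G) ^ 2 = 1 := by rw [← hg']; exact pow_orderOf_eq_one _
    exact hR (h.cent_invol P (g : G) hgS.2 hg1 hg2 R (MulAction.mem_stabilizer_iff.mp hgS.1))
  have h5 : ¬ 5 ∣ Nat.card ↥S := by
    intro hdvd
    obtain ⟨g, hg⟩ := exists_prime_orderOf_dvd_card' (G := ↥S) 5 hdvd
    have hgS : (g : G) ∈ MulAction.stabilizer G R ⊓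
        Subgroup.centralizer ((P : Subgroup G) : Set G) := by rw [← hSdef]; exact g.2
    have hg' : orderOf (g : G) = 5 := by rw [Subgroup.orderOf_coe]; exact hg
    have hg1 : (g : G) ≠ 1 := by
      intro h1; rw [h1, orderOf_one] at hg'; norm_num at hg'
    have hg5 : (g : G) ^ 5 ^ 1 = 1 := by rw [pow_one, ← hg']; exact pow_orderOf_eq_one _
    have hgP : (g : G) ∈ (P : Subgroup G) :=
      pelt_mem (g : G) 1 hg5 P (Subgroup.centralizer_le_normalizer _ hgS.2)
    exact hg1 (h.free P R (Ne.symm hR) (g : G) hgP (MulAction.mem_stabilizer_iff.mp hgS.1))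
  have hle : Nat.card ↥S ≤ 60 := Nat.le_of_dvd (by norm_num) h60
  generalize Nat.card ↥S = n at h60 h2 h5 hle
  interval_cases n <;> omega

theorem Min21.stab_pow_three (h : Min21 G) (P R : Sylow 5 G) (hR : R ≠ P) (z : G)
    (hzC : z ∈ Subgroup.centralizer ((P : Subgroup G) : Set G)) (hzR : z • R = R) :
    z ^ 3 = 1 := by
  have h1 := h.stab_card_dvd P R hR
  have hz : z ∈ MulAction.stabilizer G R ⊓ Subgroup.centralizer ((P : Subgroup G) : Set G) :=
    ⟨MulAction.mem_stabilizer_iff.mpr hzR, hzC⟩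
  have h2 : (⟨z, hz⟩ : ↥(MulAction.stabilizer G R ⊓
      Subgroup.centralizer ((P : Subgroup G) : Set G))) ^ Nat.card ↥(MulAction.stabilizer G R ⊓
      Subgroup.centralizer ((P : Subgroup G) : Set G)) = 1 := pow_card_eq_one'
  have h3 : z ^ Nat.card ↥(MulAction.stabilizer G R ⊓
      Subgroup.centralizer ((P : Subgroup G) : Set G)) = 1 := congrArg Subtype.val h2
  obtain ⟨m, hm⟩ := h1
  rw [hm, pow_mul, h3, one_pow]

end main

end Cfsg.Agent.Lib.Lead.Syl21
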