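import Mathlib
import Cfsg.Agent.Lib.Lead.Syl21A

/-!
A minimal group with exactly 21 Sylow 5-subgroups: involutions inverting a Sylow 5-subgroup.
-/

set_option autoImplicit false
set_option linter.style.haveILetI false
set_option linter.unusedSectionVars false

namespace Cfsg.Agent.Lib.Lead.Syl21

open scoped Pointwise
open Cfsg.Agent.Lib.Lead.SylowTwoP Cfsg.Agent.Lib.Lead.SylowKP

universe u

local instance fact5b : Fact (Nat.Prime 5) := ⟨by norm_num⟩
local instance fact3b : Fact (Nat.Prime 3) := ⟨by norm_num⟩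
local instance fact2b : Fact (Nat.Prime 2) := ⟨by norm_num⟩

section general
variable {G : Type u} [Group G] [Finite G]

theorem le_centralizer_of_prime_card (H : Subgroup G) (q : ℕ) [Fact q.Prime]
    (hH : Nat.card ↥H = q) : H ≤ Subgroup.centralizer (H : Set G) := by
  haveI : IsCyclic ↥H := isCyclic_of_prime_card hH
  intro x hx
  rw [Subgroup.mem_centralizer_iff]
  intro y hy
  obtain ⟨g, hg⟩ := IsCyclic.exists_generator (α := ↥H)
  obtain ⟨i, hi⟩ := Subgroup.mem_zpowers_iff.mp (hg ⟨x, hx⟩)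
  obtain ⟨j, hj⟩ := Subgroup.mem_zpowers_iff.mp (hg ⟨y, hy⟩)
  have hi' : (g : G) ^ i = x := by
    have := congrArg Subtype.val hi; simpa using this
  have hj' : (g : G) ^ j = y := by
    have := congrArg Subtype.val hj; simpa using this
  rw [← hi', ← hj', ← zpow_add, ← zpow_add, add_comm]

theorem cen_of_inv_inv (H : Subgroup G) (u v : G) (hu : ∀ y ∈ H, u * y * u⁻¹ = y⁻¹)
    (hv : ∀ y ∈ H, v * y * v⁻¹ = y⁻¹) : ∀ y ∈ H, (u * v) * y * (u * v)⁻¹ = y := by
  intro y hy
  have h1 := hv y hy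
  have h2 := hu y⁻¹ (H.inv_mem hy)
  calc (u * v) * y * (u * v)⁻¹ = u * (v * y * v⁻¹) * u⁻¹ := by group
    _ = u * y⁻¹ * u⁻¹ := by rw [h1]
    _ = y := by rw [h2, inv_inv]

theorem inv_of_cen_inv (H : Subgroup G) (x u : G) (hx : ∀ y ∈ H, x * y * x⁻¹ = y)
    (hu : ∀ y ∈ H, u * y * u⁻¹ = y⁻¹) : ∀ y ∈ H, (x * u) * y * (x * u)⁻¹ = y⁻¹ := by
  intro y hy
  calc (x * u) * y * (x * u)⁻¹ = x * (u * y * u⁻¹) * x⁻¹ := by group
    _ = x * y⁻¹ * x⁻¹ := by rw [hu y hy]
    _ = y⁻¹ := hx y⁻¹ (H.inv_mem hy)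

theorem cen_iff (H : Subgroup G) (x : G) :
    x ∈ Subgroup.centralizer (H : Set G) ↔ ∀ y ∈ H, x * y * x⁻¹ = y := by
  rw [Subgroup.mem_centralizer_iff]
  constructor
  · intro h y hy
    rw [← h y hy]; group
  · intro h y hy
    have := h y hy
    calc y * x = (x * y * x⁻¹) * x := by rw [this]
      _ = x * y := by group

theorem card_stab_sub (C : Subgroup G) (R : Sylow 5 G) :
    Nat.card (MulAction.stabilizer ↥C R) = Nat.card ↥(MulAction.stabilizer G R ⊓ C) := by
  have : MulAction.stabilizer ↥C R = (MulAction.stabilizer G R ⊓ C).subgroupOf C := by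
    ext x
    rw [MulAction.mem_stabilizer_iff, Subgroup.mem_subgroupOf, Subgroup.mem_inf,
      MulAction.mem_stabilizer_iff]
    exact ⟨fun hx => ⟨hx, x.2⟩, fun hx => hx.1⟩
  rw [this]
  exact Nat.card_congr (Subgroup.subgroupOfEquivOfLe inf_le_right).toEquiv

theorem card_orbit_stab (C : Subgroup G) (R : Sylow 5 G) :
    (MulAction.orbit ↥C R).ncard * Nat.card ↥(MulAction.stabilizer G R ⊓ C) = Nat.card ↥C := by
  rw [← card_stab_sub, ← Nat.card_coe_set_eq, ← Nat.card_prod]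
  exact Nat.card_congr (MulAction.orbitProdStabilizerEquivGroup _ R)

/-- `t` is an involution normalising the Sylow subgroup `P` and inverting it. -/
structure InvInv (P : Sylow 5 G) (t : G) : Prop where
  sq : t ^ 2 = 1
  norm : t ∈ Subgroup.normalizer ((P : Subgroup G) : Set G)
  inv : ∀ x ∈ (P : Subgroup G), t * x * t⁻¹ = x⁻¹

end general

section main
variable {G : Type u} [Group G] [Finite G]

theorem Min21.gen (h : Min21 G) (P : Sylow 5 G) :
    ∃ s : G, s ∈ (P : Subgroup G) ∧ orderOf s = 5 ∧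
      ∀ x ∈ (P : Subgroup G), ∃ i : ℕ, x = s ^ i := by
  have hc := h.card P
  haveI : IsCyclic ↥(P : Subgroup G) := isCyclic_of_prime_card hc
  obtain ⟨g, hg⟩ := IsCyclic.exists_generator (α := ↥(P : Subgroup G))
  have hgo : orderOf g = 5 := by rw [orderOf_eq_card_of_forall_mem_zpowers hg, hc]
  refine ⟨(g : G), g.2, by rw [Subgroup.orderOf_coe]; exact hgo, fun x hx => ?_⟩
  have h1 := hg ⟨x, hx⟩
  obtain ⟨m, hm⟩ := (Submonoid.mem_powers_iff _ _).mp (mem_powers_iff_mem_zpowers.mpr h1)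
  refine ⟨m, ?_⟩
  have := congrArg Subtype.val hm
  simpa using this.symm

theorem Min21.le_cent (h : Min21 G) (P : Sylow 5 G) :
    (P : Subgroup G) ≤ Subgroup.centralizer ((P : Subgroup G) : Set G) :=
  le_centralizer_of_prime_card _ 5 (h.card P)

/-- An element normalising `P` whose square centralises `P` centralises or inverts `P`. -/
theorem Min21.dich (h : Min21 G) (P : Sylow 5 G) (u : G)
    (huN : u ∈ Subgroup.normalizer ((P : Subgroup G) : Set G))
    (hu2 : ∀ x ∈ (P : Subgroup G), u ^ 2 * x = x * u ^ 2) :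
    (∀ x ∈ (P : Subgroup G), u * x * u⁻¹ = x) ∨
      (∀ x ∈ (P : Subgroup G), u * x * u⁻¹ = x⁻¹) := by
  obtain ⟨s, hsP, hso, hgen⟩ := h.gen P
  have husP : u * s * u⁻¹ ∈ (P : Subgroup G) := (Subgroup.mem_normalizer_iff.mp huN s).mp hsP
  obtain ⟨k, hk⟩ := hgen _ husP
  have hconj : ∀ i : ℕ, u * s ^ i * u⁻¹ = s ^ (k * i) := by
    intro i
    rw [pow_mul, ← hk, conj_pow]
  have h2 : s ^ (k * k) = s ^ 1 := by
    rw [← hconj k, pow_one, ← hk]
    have hu2' : u * u * s = s * (u * u) := by rw [← pow_two]; exact hu2 s hsP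
    calc u * (u * s * u⁻¹) * u⁻¹ = (u * u * s) * (u * u)⁻¹ := by group
      _ = s * (u * u) * (u * u)⁻¹ := by rw [hu2']
      _ = s := by group
  have h3 : (k * k) % 5 = 1 := by
    have : k * k ≡ 1 [MOD 5] := by
      rw [← hso]; exact pow_eq_pow_iff_modEq.mp h2
    exact this
  have h4 : k % 5 = 1 ∨ k % 5 = 4 := by
    rw [Nat.mul_mod] at h3
    have h6 : k % 5 < 5 := Nat.mod_lt _ (by norm_num)
    generalize k % 5 = r at h3 h6 ⊢
    interval_cases r <;> omega
  rcases h4 with h4 | h4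
  · left
    have h5 : s ^ k = s ^ 1 := pow_eq_pow_iff_modEq.mpr (by rw [hso]; exact h4)
    intro x hx
    obtain ⟨i, rfl⟩ := hgen x hx
    rw [hconj, pow_mul, h5, pow_one]
  · right
    have h5 : s ^ k = s⁻¹ := by
      have h6 : s ^ k = s ^ 4 := pow_eq_pow_iff_modEq.mpr (by rw [hso]; exact h4)
      rw [h6]
      apply eq_inv_of_mul_eq_one_left
      have h7 : s ^ 5 = 1 := by rw [← hso]; exact pow_orderOf_eq_one s
      calc s ^ 4 * s = s ^ 5 := (pow_succ s 4).symm
        _ = 1 := h7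
    intro x hx
    obtain ⟨i, rfl⟩ := hgen x hx
    rw [hconj, pow_mul, h5, inv_pow]

theorem Min21.invinv_ne_one (h : Min21 G) (P : Sylow 5 G) (t : G) (ht : InvInv P t) : t ≠ 1 := by
  rintro rfl
  obtain ⟨s, hsP, hso, -⟩ := h.gen P
  have h1 := ht.inv s hsP
  rw [one_mul, inv_one, mul_one] at h1
  have h2 : s ^ 2 = 1 := by
    calc s ^ 2 = s * s := pow_two s
      _ = s⁻¹ * s := by rw [← h1]
      _ = 1 := inv_mul_cancel s
  have := orderOf_dvd_of_pow_eq_one h2
  rw [hso] at this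
  norm_num at this

theorem Min21.invinv_inj (h : Min21 G) (P : Sylow 5 G) (t : G) (ht : InvInv P t)
    (x y : G) (hx : x ∈ (P : Subgroup G)) (hy : y ∈ (P : Subgroup G)) (R R' : Sylow 5 G)
    (hR : t • R = R) (hR' : t • R' = R') (hRP : R ≠ P) (hxy : x • R = y • R') :
    x = y ∧ R = R' := by
  have hti : t⁻¹ • R = R := by rw [inv_smul_eq_iff, hR]
  obtain ⟨w, hwdef⟩ : ∃ w : G, w = y⁻¹ * x := ⟨_, rfl⟩
  have hw : w • R = R' := by rw [hwdef, mul_smul, hxy, inv_smul_smul]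
  have hwP : w ∈ (P : Subgroup G) := by
    rw [hwdef]; exact Subgroup.mul_mem _ (Subgroup.inv_mem _ hy) hx
  have h1 : (w⁻¹ * w⁻¹) • R = R := by
    have h2 := ht.inv w hwP
    have h3 : w⁻¹ * w⁻¹ = w⁻¹ * t * w * t⁻¹ := by
      calc w⁻¹ * w⁻¹ = w⁻¹ * (t * w * t⁻¹) := by rw [h2]
        _ = w⁻¹ * t * w * t⁻¹ := by group
    rw [h3, mul_smul, mul_smul, mul_smul, hti, hw, hR', ← hw, inv_smul_smul]
  have h4 := h.free P R (Ne.symm hRP) _
    (Subgroup.mul_mem _ (Subgroup.inv_mem _ hwP) (Subgroup.inv_mem _ hwP)) h1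
  have hw5 : w ^ 5 = 1 := by
    have h5 : (⟨w, hwP⟩ : ↥(P : Subgroup G)) ^ Nat.card ↥(P : Subgroup G) = 1 := pow_card_eq_one'
    rw [h.card P] at h5
    exact congrArg Subtype.val h5
  have hw1 : w = 1 := by
    have h6 : w ^ 2 = 1 := by
      have : (w ^ 2)⁻¹ = 1 := by rw [pow_two, mul_inv_rev]; exact h4
      exact inv_eq_one.mp this
    calc w = w ^ 5 * ((w ^ 2)⁻¹ * (w ^ 2)⁻¹) := by group
      _ = 1 := by rw [hw5, h6]; simp
  have hxy' : x = y := by
    rw [hwdef] at hw1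
    have := congrArg (fun g => y * g) hw1
    simpa using this
  refine ⟨hxy', ?_⟩
  rw [hw1, one_smul] at hw
  exact hw

theorem Min21.invinv_count (h : Min21 G) (P : Sylow 5 G) (t : G) (ht : InvInv P t) :
    5 * ((Fx t).ncard - 1) ≤ 20 ∧
    ((Fx t).ncard = 5 → ∀ R : Sylow 5 G, R ≠ P → ∃ x ∈ (P : Subgroup G),
      ∃ R' : Sylow 5 G, t • R' = R' ∧ R' ≠ P ∧ x • R' = R) := by
  have hPfx : P ∈ Fx t := Sylow.smul_eq_iff_mem_normalizer.mpr ht.norm
  obtain ⟨f, hf⟩ : ∃ f : ↥(P : Subgroup G) × ↥(Fx t \ {P}) → ↥(({P} : Set (Sylow 5 G))ᶜ),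
      ∀ a, ((f a : ↥(({P} : Set (Sylow 5 G))ᶜ)) : Sylow 5 G) =
        (a.1 : G) • (a.2 : Sylow 5 G) := by
    refine ⟨fun a => ⟨(a.1 : G) • (a.2 : Sylow 5 G), ?_⟩, fun a => rfl⟩
    intro hmem
    have hmem' : (a.1 : G) • (a.2 : Sylow 5 G) = P := hmem
    have hxP : (a.1 : G) • P = P :=
      Sylow.smul_eq_iff_mem_normalizer.mpr (Subgroup.le_normalizer a.1.2)
    exact a.2.2.2 (smul_left_cancel (a.1 : G) (hmem'.trans hxP.symm))
  have hinj : Function.Injective f := by
    rintro ⟨x, R⟩ ⟨y, R'⟩ hxy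
    have h1 := congrArg (fun z : ↥(({P} : Set (Sylow 5 G))ᶜ) => (z : Sylow 5 G)) hxy
    simp only [hf] at h1
    obtain ⟨h2, h3⟩ := h.invinv_inj P t ht (x : G) (y : G) x.2 y.2 (R : Sylow 5 G)
      (R' : Sylow 5 G) R.2.1 R'.2.1 R.2.2 h1
    exact Prod.ext (Subtype.ext h2) (Subtype.ext h3)
  have hc1 : Nat.card (↥(P : Subgroup G) × ↥(Fx t \ {P})) = 5 * ((Fx t).ncard - 1) := by
    rw [Nat.card_prod, h.card P, Nat.card_coe_set_eq, Set.ncard_sdiff_singleton_of_mem hPfx]
  have hc2 : Nat.card ↥(({P} : Set (Sylow 5 G))ᶜ) = 20 := by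
    rw [Nat.card_coe_set_eq, Set.ncard_compl, Set.ncard_singleton, h.h21]
  constructor
  · rw [← hc1, ← hc2]
    exact Nat.card_le_card_of_injective f hinj
  · intro h5 R hR
    have hbij : Function.Bijective f := hinj.bijective_of_nat_card_le (by rw [hc1, hc2, h5])
    obtain ⟨a, ha⟩ := hbij.2 ⟨R, hR⟩
    refine ⟨(a.1 : G), a.1.2, (a.2 : Sylow 5 G), a.2.2.1, a.2.2.2, ?_⟩
    rw [← hf a, ha]

theorem Min21.invinv_fx (h : Min21 G) (P : Sylow 5 G) (t : G) (ht : InvInv P t) :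
    (Fx t).ncard = 1 ∨ (Fx t).ncard = 5 := by
  have h1 := (h.invinv_count P t ht).1
  have h4 := h.fx_invol t (h.invinv_ne_one P t ht) ht.sq
  omega

theorem Min21.invinv_at (h : Min21 G) (t : G) (ht1 : t ≠ 1) (ht2 : t ^ 2 = 1)
    (hfx : (Fx t).ncard = 5) (R : Sylow 5 G) (hR : t • R = R) : InvInv R t := by
  have hN : t ∈ Subgroup.normalizer ((R : Subgroup G) : Set G) :=
    Sylow.smul_eq_iff_mem_normalizer.mp hR
  rcases h.dich R t hN (by intro x _; rw [ht2, one_mul, mul_one]) with hc | hi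
  · exfalso
    have hC : t ∈ Subgroup.centralizer ((R : Subgroup G) : Set G) := (cen_iff _ t).mpr hc
    have := h.cent_two_fx R t hC ht1 1 (by rw [pow_one]; exact ht2)
    omega
  · exact ⟨ht2, hN, hi⟩

theorem Min21.invinv_conj (h : Min21 G) (P : Sylow 5 G) (t t' : G) (ht : InvInv P t)
    (ht' : InvInv P t') (hfx : (Fx t).ncard = 5) (hfx' : (Fx t').ncard = 5) :
    ∃ n ∈ Subgroup.normalizer ((P : Subgroup G) : Set G), t' = n * t * n⁻¹ := by
  obtain ⟨R₀, hR₀, hR₀P⟩ := Set.exists_ne_of_one_lt_ncard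
    (by rw [hfx]; norm_num : 1 < (Fx t).ncard) P
  have hR₀t : t • R₀ = R₀ := hR₀
  obtain ⟨x, hxP, R'', hR'', hR''P, hxR⟩ := (h.invinv_count P t' ht').2 hfx' R₀ hR₀P
  obtain ⟨t'', ht''def⟩ : ∃ t'' : G, t'' = x * t' * x⁻¹ := ⟨_, rfl⟩
  have ht''sq : t'' ^ 2 = 1 := by
    rw [ht''def, conj_pow, ht'.sq, mul_one, mul_inv_cancel]
  have ht''R : t'' • R₀ = R₀ := by
    rw [ht''def, ← hxR, mul_smul, mul_smul, inv_smul_smul, hR'']
  have ht''inv : ∀ y ∈ (P : Subgroup G), t'' * y * t''⁻¹ = y⁻¹ := by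
    intro y hy
    have hy' : x⁻¹ * y * x ∈ (P : Subgroup G) :=
      Subgroup.mul_mem _ (Subgroup.mul_mem _ (Subgroup.inv_mem _ hxP) hy) hxP
    have h1 := ht'.inv _ hy'
    rw [ht''def]
    calc x * t' * x⁻¹ * y * (x * t' * x⁻¹)⁻¹ = x * (t' * (x⁻¹ * y * x) * t'⁻¹) * x⁻¹ := by group
      _ = x * (x⁻¹ * y * x)⁻¹ * x⁻¹ := by rw [h1]
      _ = y⁻¹ := by group
  have hzC : t * t'' ∈ Subgroup.centralizer ((P : Subgroup G) : Set G) :=
    (cen_iff _ _).mpr (cen_of_inv_inv _ t t'' ht.inv ht''inv)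
  have hzR : (t * t'') • R₀ = R₀ := by rw [mul_smul, ht''R, hR₀t]
  have hz3 := h.stab_pow_three P R₀ hR₀P (t * t'') hzC hzR
  have hti : t⁻¹ = t := inv_eq_of_mul_eq_one_left (by rw [← pow_two]; exact ht.sq)
  have ht''i : t''⁻¹ = t'' := inv_eq_of_mul_eq_one_left (by rw [← pow_two]; exact ht''sq)
  have hconj : (t * t'') * t * (t * t'')⁻¹ = t'' := by
    rw [mul_inv_rev, ht''i, hti]
    have hz3' : (t * t'') * (t * t'') * (t * t'') = 1 := by rw [← hz3, pow_succ, pow_two]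
    calc t * t'' * t * (t'' * t) = ((t * t'') * (t * t'') * (t * t'')) * t''⁻¹ := by group
      _ = t'' := by rw [hz3', one_mul, ht''i]
  refine ⟨x⁻¹ * (t * t''), ?_, ?_⟩
  · exact Subgroup.mul_mem _ (Subgroup.inv_mem _ (Subgroup.le_normalizer hxP))
      (Subgroup.centralizer_le_normalizer _ hzC)
  · have h1 : t' = x⁻¹ * t'' * x := by rw [ht''def]; group
    calc t' = x⁻¹ * t'' * x := h1
      _ = x⁻¹ * ((t * t'') * t * (t * t'')⁻¹) * x := by rw [hconj]
      _ = x⁻¹ * (t * t'') * t * (x⁻¹ * (t * t''))⁻¹ := by group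

theorem Min21.five_dvd_cent (h : Min21 G) (P : Sylow 5 G) (t : G) (ht : InvInv P t)
    (hfx : (Fx t).ncard = 5) : 5 ∣ Nat.card ↥(Subgroup.centralizer ({t} : Set G)) := by
  have ht1 := h.invinv_ne_one P t ht
  have horb : MulAction.orbit ↥(Subgroup.centralizer ({t} : Set G)) P = Fx t := by
    ext R
    constructor
    · rintro ⟨g, rfl⟩
      show t • ((g : G) • P) = (g : G) • P
      have hg : t * (g : G) = (g : G) * t :=
        Subgroup.mem_centralizer_iff.mp g.2 t (Set.mem_singleton t)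
      rw [← mul_smul, hg, mul_smul, Sylow.smul_eq_iff_mem_normalizer.mpr ht.norm]
    · intro hR
      have hR' : t • R = R := hR
      obtain ⟨g₀, hg₀⟩ := MulAction.exists_smul_eq G P R
      have hRinv := h.invinv_at t ht1 ht.sq hfx R hR'
      have ht' : InvInv P (g₀⁻¹ * t * g₀) := by
        refine ⟨?_, ?_, ?_⟩
        · have h1 : g₀⁻¹ * t * g₀ = g₀⁻¹ * t * g₀⁻¹⁻¹ := by rw [inv_inv]
          rw [h1, conj_pow, ht.sq, mul_one, mul_inv_cancel]
        · apply Sylow.smul_eq_iff_mem_normalizer.mp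
          rw [mul_smul, mul_smul, hg₀, hR', ← hg₀, inv_smul_smul]
        · intro y hy
          have hy' : g₀ * y * g₀⁻¹ ∈ (R : Subgroup G) := by
            rw [← hg₀, mem_smul_sylow]
            have h1 : g₀⁻¹ * (g₀ * y * g₀⁻¹) * g₀ = y := by group
            rw [h1]; exact hy
          have h1 := hRinv.inv _ hy'
          calc g₀⁻¹ * t * g₀ * y * (g₀⁻¹ * t * g₀)⁻¹
              = g₀⁻¹ * (t * (g₀ * y * g₀⁻¹) * t⁻¹) * g₀ := by group
            _ = g₀⁻¹ * (g₀ * y * g₀⁻¹)⁻¹ * g₀ := by rw [h1]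
            _ = y⁻¹ := by group
      have hfx' : (Fx (g₀⁻¹ * t * g₀)).ncard = 5 := by
        refine Eq.trans ?_ hfx
        have himg : Fx (g₀⁻¹ * t * g₀) = (fun S : Sylow 5 G => g₀⁻¹ • S) '' Fx t := by
          ext S
          simp only [Set.mem_image, mem_Fx]
          constructor
          · intro hS
            refine ⟨g₀ • S, ?_, inv_smul_smul g₀ S⟩
            have h1 : t • g₀ • S = g₀ • ((g₀⁻¹ * t * g₀) • S) := by
              rw [← mul_smul, ← mul_smul]; congr 1; group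
            rw [h1, hS]
          · rintro ⟨S', hS', rfl⟩
            rw [← mul_smul, show g₀⁻¹ * t * g₀ * g₀⁻¹ = g₀⁻¹ * t by group, mul_smul, hS']
        rw [himg]
        exact Set.ncard_image_of_injective _ (MulAction.injective g₀⁻¹)
      obtain ⟨n, hn, hnt⟩ := h.invinv_conj P t (g₀⁻¹ * t * g₀) ht ht' hfx hfx'
      have hgZ : g₀ * n ∈ Subgroup.centralizer ({t} : Set G) := by
        rw [Subgroup.mem_centralizer_iff]
        intro y hy
        rw [Set.mem_singleton_iff] at hy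
        rw [hy]
        have h2 : g₀ * n * t = t * (g₀ * n) := by
          calc g₀ * n * t = g₀ * (n * t * n⁻¹) * n := by group
            _ = g₀ * (g₀⁻¹ * t * g₀) * n := by rw [hnt]
            _ = t * (g₀ * n) := by group
        exact h2.symm
      refine ⟨⟨g₀ * n, hgZ⟩, ?_⟩
      show (g₀ * n) • P = R
      rw [mul_smul, Sylow.smul_eq_iff_mem_normalizer.mpr hn, hg₀]
  have h1 : Nat.card (MulAction.orbit ↥(Subgroup.centralizer ({t} : Set G)) P) *
      Nat.card (MulAction.stabilizer ↥(Subgroup.centralizer ({t} : Set G)) P) =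
      Nat.card ↥(Subgroup.centralizer ({t} : Set G)) := by
    rw [← Nat.card_prod]
    exact Nat.card_congr (MulAction.orbitProdStabilizerEquivGroup _ P)
  rw [Nat.card_coe_set_eq, horb, hfx] at h1
  exact Dvd.intro _ h1

theorem Min21.sylow_of_order (h : Min21 G) (y : G) (hy : orderOf y = 5) :
    ∃ Q : Sylow 5 G, (Q : Subgroup G) = Subgroup.zpowers y := by
  have hc : Nat.card ↥(Subgroup.zpowers y) = 5 ^ 1 := by rw [Nat.card_zpowers, hy, pow_one]
  obtain ⟨Q, hQ⟩ := (IsPGroup.of_card hc).exists_le_sylow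
  refine ⟨Q, ?_⟩
  symm
  apply Subgroup.eq_of_le_of_card_ge hQ
  rw [h.card Q, hc, pow_one]

/-- There is no involution inverting `P` and normalising exactly five Sylow 5-subgroups. -/
theorem Min21.no_invinv5 (h : Min21 G) (P : Sylow 5 G) (t : G) (ht : InvInv P t)
    (hfx : (Fx t).ncard = 5) : False := by
  have ht1 := h.invinv_ne_one P t ht
  obtain ⟨y', hy'⟩ := exists_prime_orderOf_dvd_card'
    (G := ↥(Subgroup.centralizer ({t} : Set G))) 5 (h.five_dvd_cent P t ht hfx)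
  have hy : orderOf (y' : G) = 5 := by rw [Subgroup.orderOf_coe]; exact hy'
  have hcomm : t * (y' : G) = (y' : G) * t :=
    Subgroup.mem_centralizer_iff.mp y'.2 t (Set.mem_singleton t)
  obtain ⟨Y, hY⟩ := h.sylow_of_order (y' : G) hy
  have htY : t • Y = Y := by
    rw [Sylow.smul_eq_iff_mem_normalizer]
    apply Subgroup.centralizer_le_normalizer
    rw [Subgroup.mem_centralizer_iff]
    intro w hw
    have hw' : w ∈ (Y : Subgroup G) := hw
    rw [hY] at hw'
    obtain ⟨i, rfl⟩ := Subgroup.mem_zpowers_iff.mp hw'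
    exact (Commute.zpow_left (show Commute (y' : G) t from hcomm.symm) i).eq
  have hYinv := h.invinv_at t ht1 ht.sq hfx Y htY
  have hyY : (y' : G) ∈ (Y : Subgroup G) := by rw [hY]; exact Subgroup.mem_zpowers _
  have h1 := hYinv.inv _ hyY
  have h2 : (y' : G) = (y' : G)⁻¹ := by
    rw [← h1, hcomm]; group
  have h3 : (y' : G) ^ 2 = 1 := by
    calc (y' : G) ^ 2 = (y' : G) * (y' : G) := pow_two _
      _ = (y' : G)⁻¹ * (y' : G) := by rw [← h2]
      _ = 1 := inv_mul_cancel _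
  have := orderOf_dvd_of_pow_eq_one h3
  rw [hy] at this
  norm_num at this

theorem Min21.exists_invinv5 (h : Min21 G) (P : Sylow 5 G) (u : G)
    (huN : u ∈ Subgroup.normalizer ((P : Subgroup G) : Set G))
    (huinv : ∀ x ∈ (P : Subgroup G), u * x * u⁻¹ = x⁻¹)
    (htrans : ∀ R R' : Sylow 5 G, R ≠ P → R' ≠ P →
      ∃ x ∈ Subgroup.centralizer ((P : Subgroup G) : Set G), x • R = R') :
    ∃ t, InvInv P t ∧ (Fx t).ncard = 5 := by
  have hnt : Nontrivial (Sylow 5 G) := by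
    rw [← Finite.one_lt_card_iff_nontrivial, h.h21]; norm_num
  obtain ⟨R₀, hR₀⟩ := exists_ne P
  have huR : u • R₀ ≠ P := by
    intro h1
    have h2 : u • P = P := Sylow.smul_eq_iff_mem_normalizer.mpr huN
    exact hR₀ (smul_left_cancel u (h1.trans h2.symm))
  obtain ⟨x, hxC, hxR⟩ := htrans (u • R₀) R₀ huR hR₀
  have hmN : x * u ∈ Subgroup.normalizer ((P : Subgroup G) : Set G) :=
    Subgroup.mul_mem _ (Subgroup.centralizer_le_normalizer _ hxC) huN
  have hminv : ∀ y ∈ (P : Subgroup G), (x * u) * y * (x * u)⁻¹ = y⁻¹ :=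
    inv_of_cen_inv _ x u ((cen_iff _ x).mp hxC) huinv
  have hmR : (x * u) • R₀ = R₀ := by rw [mul_smul, hxR]
  have hm2C : (x * u) * (x * u) ∈ Subgroup.centralizer ((P : Subgroup G) : Set G) :=
    (cen_iff _ _).mpr (cen_of_inv_inv _ _ _ hminv hminv)
  have hm2R : ((x * u) * (x * u)) • R₀ = R₀ := by rw [mul_smul, hmR, hmR]
  have hm6 := h.stab_pow_three P R₀ hR₀ _ hm2C hm2R
  have ht : InvInv P ((x * u) * (x * u) * (x * u)) := by
    refine ⟨?_, Subgroup.mul_mem _ (Subgroup.mul_mem _ hmN hmN) hmN,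
      inv_of_cen_inv _ _ _ ((cen_iff _ _).mp hm2C) hminv⟩
    have hm6' : ((x * u) * (x * u)) * ((x * u) * (x * u)) * ((x * u) * (x * u)) = 1 := by
      rw [← hm6, pow_succ, pow_two]
    calc ((x * u) * (x * u) * (x * u)) ^ 2
        = ((x * u) * (x * u)) * ((x * u) * (x * u)) * ((x * u) * (x * u)) := by
          rw [pow_two]; group
      _ = 1 := hm6'
  refine ⟨_, ht, ?_⟩
  rcases h.invinv_fx P _ ht with h1 | h5
  · exfalso
    obtain ⟨a, ha⟩ := Set.ncard_eq_one.mp h1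
    have hP : P ∈ Fx ((x * u) * (x * u) * (x * u)) :=
      Sylow.smul_eq_iff_mem_normalizer.mpr ht.norm
    have hR : R₀ ∈ Fx ((x * u) * (x * u) * (x * u)) := by
      show ((x * u) * (x * u) * (x * u)) • R₀ = R₀
      rw [mul_smul, mul_smul, hmR, hmR, hmR]
    rw [ha, Set.mem_singleton_iff] at hP hR
    exact hR₀ (hR.trans hP.symm)
  · exact h5

/-- If `20` divides the order of the centralizer `C` of `P`, then `C` is transitive on the other
Sylow 5-subgroups. -/
theorem Min21.cent_trans (h : Min21 G) (P : Sylow 5 G)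
    (h20 : 20 ∣ Nat.card ↥(Subgroup.centralizer ((P : Subgroup G) : Set G))) :
    ∀ R R' : Sylow 5 G, R ≠ P → R' ≠ P →
      ∃ x ∈ Subgroup.centralizer ((P : Subgroup G) : Set G), x • R = R' := by
  intro R R' hR hR'
  have h60 := h.card_cent_dvd P
  have h1 := card_orbit_stab (Subgroup.centralizer ((P : Subgroup G) : Set G)) R
  have h3 := h.stab_card_dvd P R hR
  have hsub : MulAction.orbit ↥(Subgroup.centralizer ((P : Subgroup G) : Set G)) R ⊆
      ({P}ᶜ : Set (Sylow 5 G)) := by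
    rintro S ⟨x, rfl⟩ hS
    apply hR
    have hS' : (x : G) • R = P := hS
    have hxP : (x : G) • P = P :=
      Sylow.smul_eq_iff_mem_normalizer.mpr (Subgroup.centralizer_le_normalizer _ x.2)
    exact smul_left_cancel (x : G) (hS'.trans hxP.symm)
  have hcompl : ({P}ᶜ : Set (Sylow 5 G)).ncard = 20 := by
    rw [Set.ncard_compl, Set.ncard_singleton, h.h21]
  have hle : (MulAction.orbit ↥(Subgroup.centralizer ((P : Subgroup G) : Set G)) R).ncard ≤ 20 := by
    rw [← hcompl]; exact Set.ncard_le_ncard hsub (Set.toFinite _)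
  have hge : 20 ≤ (MulAction.orbit ↥(Subgroup.centralizer ((P : Subgroup G) : Set G)) R).ncard := by
    have hcpos : 0 < Nat.card ↥(Subgroup.centralizer ((P : Subgroup G) : Set G)) := Nat.card_pos
    generalize (MulAction.orbit ↥(Subgroup.centralizer ((P : Subgroup G) : Set G)) R).ncard = a
      at h1 hle ⊢
    generalize Nat.card ↥(MulAction.stabilizer G R ⊓
      Subgroup.centralizer ((P : Subgroup G) : Set G)) = b at h1 h3
    generalize Nat.card ↥(Subgroup.centralizer ((P : Subgroup G) : Set G)) = c at h1 h20 h60 hcpos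
    obtain ⟨m, rfl⟩ := h20
    have hm3 : m ∣ 3 := Nat.dvd_of_mul_dvd_mul_left (by norm_num : 0 < 20) (by simpa using h60)
    rcases (Nat.dvd_prime Nat.prime_three).mp hm3 with rfl | rfl <;>
      rcases (Nat.dvd_prime Nat.prime_three).mp h3 with rfl | rfl <;> omega
  have heq : MulAction.orbit ↥(Subgroup.centralizer ((P : Subgroup G) : Set G)) R =
      ({P}ᶜ : Set (Sylow 5 G)) :=
    Set.eq_of_subset_of_ncard_le hsub (by rw [hcompl]; exact hge) (Set.toFinite _)
  have hmem : R' ∈ MulAction.orbit ↥(Subgroup.centralizer ((P : Subgroup G) : Set G)) R := by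
    rw [heq]; exact hR'
  obtain ⟨x, hx⟩ := hmem
  exact ⟨(x : G), x.2, hx⟩

/-- The centralizer of `P` does not have order 30. -/
theorem Min21.card_cent_ne_30 (h : Min21 G) (P : Sylow 5 G) :
    Nat.card ↥(Subgroup.centralizer ((P : Subgroup G) : Set G)) ≠ 30 := by
  intro h30
  obtain ⟨z', hz'⟩ := exists_prime_orderOf_dvd_card'
    (G := ↥(Subgroup.centralizer ((P : Subgroup G) : Set G))) 3 (by rw [h30]; norm_num)
  have hzo : orderOf (z' : G) = 3 := by rw [Subgroup.orderOf_coe]; exact hz'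
  have hzC : (z' : G) ∈ Subgroup.centralizer ((P : Subgroup G) : Set G) := z'.2
  have hz1 : (z' : G) ≠ 1 := by
    intro h1; rw [h1, orderOf_one] at hzo; norm_num at hzo
  have hz3 : (z' : G) ^ 3 ^ 1 = 1 := by rw [pow_one, ← hzo]; exact pow_orderOf_eq_one _
  have hfx := h.cent_three P (z' : G) hzC hz1 1 hz3
  obtain ⟨R, hR, hRP⟩ := Set.exists_ne_of_one_lt_ncard
    (by rw [hfx]; norm_num : 1 < (Fx (z' : G)).ncard) P
  have hRz : (z' : G) • R = R := hR
  have h3 := h.stab_card_dvd P R hRP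
  have hS3 : Nat.card ↥(MulAction.stabilizer G R ⊓
      Subgroup.centralizer ((P : Subgroup G) : Set G)) = 3 := by
    rcases (Nat.dvd_prime Nat.prime_three).mp h3 with h1 | h1
    · exfalso
      have hz : (z' : G) ∈ MulAction.stabilizer G R ⊓
          Subgroup.centralizer ((P : Subgroup G) : Set G) :=
        ⟨MulAction.mem_stabilizer_iff.mpr hRz, hzC⟩
      rw [Subgroup.card_eq_one] at h1
      rw [h1, Subgroup.mem_bot] at hz
      exact hz1 hz
    · exact h1
  have h1 := card_orbit_stab (Subgroup.centralizer ((P : Subgroup G) : Set G)) R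
  rw [hS3, h30] at h1
  have h10 : (MulAction.orbit ↥(Subgroup.centralizer ((P : Subgroup G) : Set G)) R).ncard = 10 := by
    omega
  have hPO : P ∉ MulAction.orbit ↥(Subgroup.centralizer ((P : Subgroup G) : Set G)) R := by
    rintro ⟨c, hc⟩
    apply hRP
    have hc' : (c : G) • R = P := hc
    have hcP : (c : G) • P = P :=
      Sylow.smul_eq_iff_mem_normalizer.mpr (Subgroup.centralizer_le_normalizer _ c.2)
    exact smul_left_cancel (c : G) (hc'.trans hcP.symm)
  have hmod := inv_modEq_elt 3 (z' : G) 1 hz3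
    (MulAction.orbit ↥(Subgroup.centralizer ((P : Subgroup G) : Set G)) R) (by
      rintro S ⟨x, rfl⟩
      exact ⟨z' * x, mul_smul z' x R⟩)
  rw [h10] at hmod
  obtain ⟨T, hTdef⟩ : ∃ T : Set (Sylow 5 G), T = {S | S ∈ MulAction.orbit
      ↥(Subgroup.centralizer ((P : Subgroup G) : Set G)) R ∧ (z' : G) • S = S} := ⟨_, rfl⟩
  rw [← hTdef] at hmod
  have hT5 : 5 ∣ T.ncard := by
    apply card_inv_not_mem P
    · intro x hx S hS
      rw [hTdef] at hS ⊢
      obtain ⟨⟨c, rfl⟩, hS2⟩ := hS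
      have hxC : x ∈ Subgroup.centralizer ((P : Subgroup G) : Set G) := h.le_cent P hx
      beta_reduce at hS2
      refine ⟨⟨⟨x, hxC⟩ * c, mul_smul (⟨x, hxC⟩ : ↥(Subgroup.centralizer ((P : Subgroup G) : Set G))) c R⟩, ?_⟩
      have hcomm : x * (z' : G) = (z' : G) * x := Subgroup.mem_centralizer_iff.mp hzC x hx
      beta_reduce
      rw [← mul_smul, ← hcomm, mul_smul, hS2]
    · rw [hTdef]
      rintro ⟨hP, -⟩
      exact hPO hP
  have hTle : T.ncard ≤ 5 := by
    have hsub : T ⊆ Fx (z' : G) \ {P} := by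
      intro S hS
      rw [hTdef] at hS
      refine ⟨hS.2, ?_⟩
      intro hSP
      rw [Set.mem_singleton_iff] at hSP
      rw [hSP] at hS
      exact hPO hS.1
    have h5 := Set.ncard_le_ncard hsub (Set.toFinite _)
    have hPfx : P ∈ Fx (z' : G) :=
      Sylow.smul_eq_iff_mem_normalizer.mpr (Subgroup.centralizer_le_normalizer _ hzC)
    rw [Set.ncard_sdiff_singleton_of_mem hPfx, hfx] at h5
    exact h5
  unfold Nat.ModEq at hmod
  obtain ⟨j, hj⟩ := hT5
  omega

end main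

end Cfsg.Agent.Lib.Lead.Syl21
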