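import Mathlib
import Cfsg.Agent.Lib.Lead.Syl21B
import Cfsg.Agent.S4304

/-!
A minimal group with exactly 21 Sylow 5-subgroups does not exist: orders, the Sylow 7-subgroups,
and the final contradiction.
-/

set_option autoImplicit false
set_option linter.style.haveILetI false
set_option linter.unusedSectionVars false

namespace Cfsg.Agent.Lib.Lead.Syl21

open scoped Pointwise
open Cfsg.Agent.Lib.Lead.SylowTwoP Cfsg.Agent.Lib.Lead.SylowKP

universe u

local instance fact5c : Fact (Nat.Prime 5) := ⟨by norm_num⟩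
local instance fact3c : Fact (Nat.Prime 3) := ⟨by norm_num⟩
local instance fact2c : Fact (Nat.Prime 2) := ⟨by norm_num⟩
local instance fact7c : Fact (Nat.Prime 7) := ⟨by norm_num⟩

section main
variable {G : Type u} [Group G] [Finite G]

/-- `N_G(P)/C_G(P)` has order dividing 4; if the order is even some element inverts `P`. -/
theorem Min21.normalizer_card (h : Min21 G) (P : Sylow 5 G) :
    ∃ d : ℕ, d ∣ 4 ∧
      Nat.card ↥(Subgroup.normalizer ((P : Subgroup G) : Set G)) =
        Nat.card ↥(Subgroup.centralizer ((P : Subgroup G) : Set G)) * d ∧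
      (2 ∣ d → ∃ u ∈ Subgroup.normalizer ((P : Subgroup G) : Set G),
        ∀ x ∈ (P : Subgroup G), u * x * u⁻¹ = x⁻¹) := by
  have hcard := h.card P
  haveI : IsCyclic ↥(P : Subgroup G) := isCyclic_of_prime_card hcard
  obtain ⟨ψ, hψ⟩ : ∃ ψ : ↥(Subgroup.normalizer ((P : Subgroup G) : Set G)) →*
      MulAut ↥(P : Subgroup G), ψ = (P : Subgroup G).normalizerMonoidHom := ⟨_, rfl⟩
  have hker : ψ.ker = (Subgroup.centralizer ((P : Subgroup G) : Set G)).subgroupOf
      (Subgroup.normalizer ((P : Subgroup G) : Set G)) := by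
    rw [hψ, Subgroup.normalizerMonoidHom_ker]
  have hkc : Nat.card ψ.ker = Nat.card ↥(Subgroup.centralizer ((P : Subgroup G) : Set G)) := by
    rw [hker]
    exact Nat.card_congr
      (Subgroup.subgroupOfEquivOfLe (Subgroup.centralizer_le_normalizer _)).toEquiv
  have hN : Nat.card ↥(Subgroup.normalizer ((P : Subgroup G) : Set G)) =
      Nat.card ↥(Subgroup.centralizer ((P : Subgroup G) : Set G)) * Nat.card ψ.range := by
    have h1 := Subgroup.card_mul_index ψ.ker
    rw [Subgroup.index_ker, hkc] at h1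
    exact h1.symm
  have hdvd : Nat.card ψ.range ∣ 4 := by
    have h1 := Subgroup.card_subgroup_dvd_card ψ.range
    rw [IsCyclic.card_mulAut, hcard, Nat.totient_prime (by norm_num)] at h1
    exact h1
  refine ⟨Nat.card ψ.range, hdvd, hN, ?_⟩
  intro h2
  obtain ⟨α, hα⟩ := exists_prime_orderOf_dvd_card' (G := ↥ψ.range) 2 h2
  obtain ⟨u', hu'⟩ := α.2
  have hα2 : α ^ 2 = 1 := by rw [← hα]; exact pow_orderOf_eq_one α
  have hu2 : u' ^ 2 ∈ ψ.ker := by
    rw [MonoidHom.mem_ker, map_pow, hu']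
    have := congrArg Subtype.val hα2
    simpa using this
  rw [hker, Subgroup.mem_subgroupOf] at hu2
  have hu2' : ∀ x ∈ (P : Subgroup G), (u' : G) ^ 2 * x = x * (u' : G) ^ 2 := by
    intro x hx
    have := Subgroup.mem_centralizer_iff.mp hu2 x hx
    simpa using this.symm
  rcases h.dich P (u' : G) u'.2 hu2' with hc | hi
  · exfalso
    have hC : (u' : G) ∈ Subgroup.centralizer ((P : Subgroup G) : Set G) := (cen_iff _ _).mpr hc
    have hk : u' ∈ ψ.ker := by rw [hker, Subgroup.mem_subgroupOf]; exact hC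
    rw [MonoidHom.mem_ker, hu'] at hk
    have hα1 : α = 1 := Subtype.ext hk
    rw [hα1, orderOf_one] at hα
    norm_num at hα
  · exact ⟨(u' : G), u'.2, hi⟩

/-- No element of order 5 normalises a Sylow 7-subgroup of order 7. -/
theorem Min21.no35 (h : Min21 G) (S : Sylow 7 G) (hS : Nat.card ↥(S : Subgroup G) = 7) (y : G)
    (hyN : y ∈ Subgroup.normalizer ((S : Subgroup G) : Set G)) (hy : orderOf y = 5) : False := by
  haveI : IsCyclic ↥(S : Subgroup G) := isCyclic_of_prime_card hS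
  obtain ⟨ψ, hψ⟩ : ∃ ψ : ↥(Subgroup.normalizer ((S : Subgroup G) : Set G)) →*
      MulAut ↥(S : Subgroup G), ψ = (S : Subgroup G).normalizerMonoidHom := ⟨_, rfl⟩
  have hker : ψ.ker = (Subgroup.centralizer ((S : Subgroup G) : Set G)).subgroupOf
      (Subgroup.normalizer ((S : Subgroup G) : Set G)) := by
    rw [hψ, Subgroup.normalizerMonoidHom_ker]
  have h1 : orderOf (ψ ⟨y, hyN⟩) ∣ 5 := by
    have := orderOf_map_dvd ψ (⟨y, hyN⟩ : ↥(Subgroup.normalizer ((S : Subgroup G) : Set G)))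
    rw [Subgroup.orderOf_mk, hy] at this
    exact this
  have h2 : orderOf (ψ ⟨y, hyN⟩) ∣ 6 := by
    have := orderOf_dvd_natCard (ψ ⟨y, hyN⟩)
    rw [IsCyclic.card_mulAut, hS, Nat.totient_prime (by norm_num)] at this
    exact this
  have h3 : orderOf (ψ ⟨y, hyN⟩) = 1 :=
    Nat.eq_one_of_dvd_coprimes (by norm_num : Nat.Coprime 5 6) h1 h2
  have hyk : (⟨y, hyN⟩ : ↥(Subgroup.normalizer ((S : Subgroup G) : Set G))) ∈ ψ.ker := by
    rw [MonoidHom.mem_ker]; exact orderOf_eq_one_iff.mp h3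
  rw [hker, Subgroup.mem_subgroupOf] at hyk
  have hyC : y ∈ Subgroup.centralizer ((S : Subgroup G) : Set G) := hyk
  obtain ⟨s', hs'⟩ := exists_prime_orderOf_dvd_card' (G := ↥(S : Subgroup G)) 7 (by rw [hS])
  have hso : orderOf (s' : G) = 7 := by rw [Subgroup.orderOf_coe]; exact hs'
  obtain ⟨Y, hY⟩ := h.sylow_of_order y hy
  have hsC : (s' : G) ∈ Subgroup.centralizer ((Y : Subgroup G) : Set G) := by
    rw [Subgroup.mem_centralizer_iff]
    intro w hw
    have hw' : w ∈ (Y : Subgroup G) := hw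
    rw [hY] at hw'
    obtain ⟨i, rfl⟩ := Subgroup.mem_zpowers_iff.mp hw'
    have hc : (s' : G) * y = y * (s' : G) := Subgroup.mem_centralizer_iff.mp hyC (s' : G) s'.2
    exact (Commute.zpow_left (show Commute y (s' : G) from hc.symm) i).eq
  rcases h.cent_prime Y (s' : G) hsC 7 (by norm_num) hso with h7 | h7 | h7 <;> norm_num at h7

/-- The Sylow 7-analysis: if `|G| = 7 m` with `m ∣ 720` and `5 ∣ m`, then `m = 120 w`, `w ≥ 2`. -/
theorem Min21.seven (h : Min21 G) (m : ℕ) (hG : Nat.card G = 7 * m) (hm : m ∣ 720) (h5 : 5 ∣ m) :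
    ∃ w, 2 ≤ w ∧ m = 120 * w := by
  have h7m : ¬ 7 ∣ m := fun h7 => by
    have := h7.trans hm
    norm_num at this
  have hm0 : m ≠ 0 := by rintro rfl; norm_num at hm
  obtain ⟨S⟩ : Nonempty (Sylow 7 G) := inferInstance
  have hS : Nat.card ↥(S : Subgroup G) = 7 := sylow_card_of 7 S m hG h7m
  have hidx : Nat.card (Sylow 7 G) = (Subgroup.normalizer ((S : Subgroup G) : Set G)).index :=
    Sylow.card_eq_index_normalizer S
  have hmod : Nat.card (Sylow 7 G) ≡ 1 [MOD 7] := card_sylow_modEq_one 7 G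
  have hne : Nat.card (Sylow 7 G) ≠ 15 := Cfsg.Agent.S4304.result
  have hSN : Nat.card ↥(S : Subgroup G) ∣
      Nat.card ↥(Subgroup.normalizer ((S : Subgroup G) : Set G)) :=
    Subgroup.card_dvd_of_le Subgroup.le_normalizer
  rw [hS] at hSN
  obtain ⟨w, hw⟩ := hSN
  have hmul := Subgroup.card_mul_index (Subgroup.normalizer ((S : Subgroup G) : Set G))
  rw [hw, hG, ← hidx] at hmul
  have hwn : w * Nat.card (Sylow 7 G) = m := by
    have : 7 * (w * Nat.card (Sylow 7 G)) = 7 * m := by rw [← hmul]; ring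
    exact Nat.eq_of_mul_eq_mul_left (by norm_num) this
  have h5w : ¬ 5 ∣ w := by
    intro hdvd
    have h5N : 5 ∣ Nat.card ↥(Subgroup.normalizer ((S : Subgroup G) : Set G)) := by
      rw [hw]; exact Dvd.dvd.mul_left hdvd 7
    obtain ⟨y, hy⟩ := exists_prime_orderOf_dvd_card'
      (G := ↥(Subgroup.normalizer ((S : Subgroup G) : Set G))) 5 h5N
    exact h.no35 S hS (y : G) y.2 (by rw [Subgroup.orderOf_coe]; exact hy)
  have h5n : 5 ∣ Nat.card (Sylow 7 G) := by
    rw [← hwn] at h5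
    exact ((Nat.Prime.dvd_mul (by norm_num)).mp h5).resolve_left h5w
  have hn720 : Nat.card (Sylow 7 G) ∣ 720 := (Dvd.intro_left w hwn).trans hm
  have hcases : Nat.card (Sylow 7 G) = 15 ∨ Nat.card (Sylow 7 G) = 120 := by
    generalize Nat.card (Sylow 7 G) = n at hmod h5n hn720
    obtain ⟨j, rfl⟩ := h5n
    have hj : j ∣ 144 :=
      Nat.dvd_of_mul_dvd_mul_left (by norm_num : 0 < 5) (show 5 * j ∣ 5 * 144 from hn720)
    have hjle : j ≤ 144 := Nat.le_of_dvd (by norm_num) hj
    unfold Nat.ModEq at hmod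
    interval_cases j <;> omega
  rcases hcases with h15 | h120
  · exact absurd h15 hne
  · rw [h120] at hwn
    refine ⟨w, ?_, by omega⟩
    by_contra hlt
    have hw1 : w = 1 := by omega
    rw [hw1, mul_one] at hw
    have hNS : (S : Subgroup G) = Subgroup.normalizer ((S : Subgroup G) : Set G) :=
      Subgroup.eq_of_le_of_card_ge Subgroup.le_normalizer (by rw [hw, hS])
    refine sylow_contra h.hF1 7 (by norm_num) S (by rw [hS]; norm_num) ?_
    rw [← hNS]
    exact le_centralizer_of_prime_card _ 7 hS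

/-- A minimal group with exactly 21 Sylow 5-subgroups does not exist. -/
theorem Min21.contra (h : Min21 G) : False := by
  obtain ⟨P⟩ : Nonempty (Sylow 5 G) := inferInstance
  obtain ⟨d, hd4, hN, hinv⟩ := h.normalizer_card P
  have h60 := h.card_cent_dvd P
  have h5C : 5 ∣ Nat.card ↥(Subgroup.centralizer ((P : Subgroup G) : Set G)) := by
    have := Subgroup.card_dvd_of_le (h.le_cent P)
    rwa [h.card P] at this
  have hidx : (Subgroup.normalizer ((P : Subgroup G) : Set G)).index = 21 :=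
    (Sylow.card_eq_index_normalizer P).symm.trans h.h21
  have hGN := Subgroup.card_mul_index (Subgroup.normalizer ((P : Subgroup G) : Set G))
  rw [hidx, hN] at hGN
  obtain ⟨c, hc⟩ := h5C
  have hc12 : c ∣ 12 :=
    Nat.dvd_of_mul_dvd_mul_left (by norm_num : 0 < 5) (show 5 * c ∣ 5 * 12 by rw [← hc]; exact h60)
  have hG : Nat.card G = 7 * (15 * c * d) := by rw [← hGN, hc]; ring
  have hm : 15 * c * d ∣ 720 := by
    have h1 : c * d ∣ 12 * 4 := Nat.mul_dvd_mul hc12 hd4
    have h2 : 15 * (c * d) ∣ 15 * (12 * 4) := Nat.mul_dvd_mul_left 15 h1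
    rw [mul_assoc]; exact h2
  obtain ⟨w, hw2, hw⟩ := h.seven (15 * c * d) hG hm
    (Dvd.intro (3 * c * d) (by ring))
  have hcle : c ≤ 12 := Nat.le_of_dvd (by norm_num) hc12
  have hdle : d ≤ 4 := Nat.le_of_dvd (by norm_num) hd4
  have key : c = 6 ∨ (4 ∣ c ∧ 2 ∣ d) := by
    clear hc hG hGN hm hN hinv
    interval_cases c <;> interval_cases d <;> omega
  rcases key with rfl | ⟨h4c, h2d⟩
  · exact h.card_cent_ne_30 P (by rw [hc])
  · obtain ⟨u, huN, huinv⟩ := hinv h2d
    have h20 : 20 ∣ Nat.card ↥(Subgroup.centralizer ((P : Subgroup G) : Set G)) := by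
      rw [hc]
      obtain ⟨e, rfl⟩ := h4c
      exact ⟨e, by ring⟩
    obtain ⟨t, ht, hfx⟩ := h.exists_invinv5 P u huN huinv (h.cent_trans P h20)
    exact h.no_invinv5 P t ht hfx

end main

end Cfsg.Agent.Lib.Lead.Syl21
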